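import Mathlib

set_option autoImplicit false

namespace Cfsg.Agent.Lib.Helper24

/-- an integer whose product with a nonzero square is a square is a square -/
theorem sq_of_mul_sq (n : ℕ) (E W : ℤ) (hE : E ≠ 0) (h : (n : ℤ) * E ^ 2 = W ^ 2) :
    IsSquare n := by
  have hdvd : E ^ 2 ∣ W ^ 2 := ⟨n, by rw [← h]; ring⟩
  have hd : E ∣ W := (Int.pow_dvd_pow_iff (by norm_num : (2 : ℕ) ≠ 0)).mp hdvd
  obtain ⟨q, rfl⟩ := hd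
  have h2 : (n : ℤ) = q ^ 2 := by
    have hE2 : E ^ 2 ≠ 0 := pow_ne_zero 2 hE
    apply mul_right_cancel₀ hE2
    rw [h]
    ring
  refine ⟨q.natAbs, ?_⟩
  have h3 : ((q.natAbs * q.natAbs : ℕ) : ℤ) = q ^ 2 := by
    push_cast
    rw [← sq]
    exact sq_abs q
  exact_mod_cast h2.trans h3.symm

theorem sum_sq_zero (Bk Bl xk xl : ℤ) (hk : 0 < xk) (hl : 0 < xl)
    (h : Bk ^ 2 * xl + Bl ^ 2 * xk = 0) : Bk = 0 ∧ Bl = 0 := by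
  have h1 : 0 ≤ Bk ^ 2 * xl := mul_nonneg (sq_nonneg _) hl.le
  have h2 : 0 ≤ Bl ^ 2 * xk := mul_nonneg (sq_nonneg _) hk.le
  have h3 : Bk ^ 2 * xl = 0 := by linarith
  have h4 : Bl ^ 2 * xk = 0 := by linarith
  constructor
  · rcases mul_eq_zero.mp h3 with h5 | h5
    · exact pow_eq_zero_iff (by norm_num) |>.mp h5
    · exact absurd h5 hl.ne'
  · rcases mul_eq_zero.mp h4 with h5 | h5
    · exact pow_eq_zero_iff (by norm_num) |>.mp h5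
    · exact absurd h5 hk.ne'

theorem one_minus_aux (xk xl Bk Bl : ℤ) (hk : 0 < xk) (hl : 0 < xl)
    (h2 : (Bk + Bl) ^ 2 * xk * xl = (1 + xk + xl) * (Bk ^ 2 * xl + Bl ^ 2 * xk)) :
    Bk = 0 ∧ Bl = 0 := by
  have h : Bk ^ 2 * xl + Bl ^ 2 * xk + (Bk * xl - Bl * xk) ^ 2 = 0 := by
    linear_combination (-1 : ℤ) * h2
  have h1 : 0 ≤ Bk ^ 2 * xl := mul_nonneg (sq_nonneg _) hl.le
  have h2' : 0 ≤ Bl ^ 2 * xk := mul_nonneg (sq_nonneg _) hk.le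
  have h3 : 0 ≤ (Bk * xl - Bl * xk) ^ 2 := sq_nonneg _
  exact sum_sq_zero Bk Bl xk xl hk hl (by linarith)

theorem two_minus_aux (xj xk xl Bk Bl : ℤ)
    (h1 : 1 + xj = xk + xl)
    (h2 : (Bk + Bl) ^ 2 * xk * xl = xj * (Bk ^ 2 * xl + Bl ^ 2 * xk)) :
    (Bk * xl - Bl * xk) ^ 2 = Bk ^ 2 * xl + Bl ^ 2 * xk ∧
    xj * xk * xl * (Bk * xl - Bl * xk) ^ 2 = ((Bk + Bl) * xk * xl) ^ 2 := by
  have hxj : xj = xk + xl - 1 := by linarith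
  subst hxj
  have e : (Bk * xl - Bl * xk) ^ 2 = Bk ^ 2 * xl + Bl ^ 2 * xk := by
    linear_combination (-1 : ℤ) * h2
  refine ⟨e, ?_⟩
  rw [e]
  linear_combination (-(xk * xl)) * h2

/-- the arithmetic of the four-term relations attached to an involution, odd case -/
theorem four_term_odd (ε₂ ε₃ ε₄ : ℤ) (h₂ : ε₂ = 1 ∨ ε₂ = -1) (h₃ : ε₃ = 1 ∨ ε₃ = -1)
    (h₄ : ε₄ = 1 ∨ ε₄ = -1) (x₂ x₃ x₄ : ℕ) (hx₂ : 0 < x₂) (hx₃ : 0 < x₃) (hx₄ : 0 < x₄)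
    (c₂ c₃ c₄ : ℤ)
    (R1 : 1 + ε₂ * x₂ + ε₃ * x₃ + ε₄ * x₄ = 0)
    (R3 : 1 + ε₂ * c₂ + ε₃ * c₃ + ε₄ * c₄ = 0)
    (R2 : (x₂ : ℤ) * x₃ * x₄ + ε₂ * c₂ ^ 2 * x₃ * x₄ + ε₃ * c₃ ^ 2 * x₂ * x₄
      + ε₄ * c₄ ^ 2 * x₂ * x₃ = 0)
    (hne : c₂ ≠ x₂) :
    ((if ε₂ = -1 then 1 else 0) + (if ε₃ = -1 then 1 else 0) + (if ε₄ = -1 then 1 else 0)
      = 2) ∧ IsSquare (x₄ * (x₂ * x₃)) := by
  have hX₂ : (0 : ℤ) < x₂ := by exact_mod_cast hx₂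
  have hX₃ : (0 : ℤ) < x₃ := by exact_mod_cast hx₃
  have hX₄ : (0 : ℤ) < x₄ := by exact_mod_cast hx₄
  have S1 : ε₂ * (x₂ - c₂) + ε₃ * (x₃ - c₃) + ε₄ * (x₄ - c₄) = 0 := by
    linear_combination R1 - R3
  have S2 : ε₂ * (x₂ - c₂) ^ 2 * x₃ * x₄ + ε₃ * (x₃ - c₃) ^ 2 * x₂ * x₄
      + ε₄ * (x₄ - c₄) ^ 2 * x₂ * x₃ = 0 := by
    linear_combination R2 - 2 * ((x₂ : ℤ) * x₃ * x₄) * R3 + ((x₂ : ℤ) * x₃ * x₄) * R1
  have hB₂ : (x₂ : ℤ) - c₂ ≠ 0 := fun h => hne (by linarith)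
  rcases h₂ with rfl | rfl <;> rcases h₃ with rfl | rfl <;> rcases h₄ with rfl | rfl
  · exfalso
    linarith
  · -- (+,+,-)
    exfalso
    have h := one_minus_aux (x₂ : ℤ) x₃ (x₂ - c₂) (x₃ - c₃) hX₂ hX₃ (by
      have e1 : (x₄ : ℤ) = 1 + x₂ + x₃ := by linarith
      have e2 : (x₄ : ℤ) - c₄ = (x₂ - c₂) + (x₃ - c₃) := by linarith
      rw [e2, e1] at S2
      linear_combination (-1 : ℤ) * S2)
    exact hB₂ h.1
  · -- (+,-,+)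
    exfalso
    have h := one_minus_aux (x₂ : ℤ) x₄ (x₂ - c₂) (x₄ - c₄) hX₂ hX₄ (by
      have e1 : (x₃ : ℤ) = 1 + x₂ + x₄ := by linarith
      have e2 : (x₃ : ℤ) - c₃ = (x₂ - c₂) + (x₄ - c₄) := by linarith
      rw [e2, e1] at S2
      linear_combination (-1 : ℤ) * S2)
    exact hB₂ h.1
  · -- (+,-,-)
    have e1 : 1 + (x₂ : ℤ) = x₃ + x₄ := by linarith
    have e2 : (x₂ : ℤ) - c₂ = (x₃ - c₃) + (x₄ - c₄) := by linarith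
    obtain ⟨hE, hW⟩ := two_minus_aux (x₂ : ℤ) x₃ x₄ (x₃ - c₃) (x₄ - c₄) e1 (by
      rw [e2] at S2
      linear_combination S2)
    have hE0 : ((x₃ : ℤ) - c₃) * x₄ - (x₄ - c₄) * x₃ ≠ 0 := by
      intro h0
      rw [h0] at hE
      have h := sum_sq_zero (x₃ - c₃) (x₄ - c₄) (x₃ : ℤ) x₄ hX₃ hX₄ (by linarith)
      exact hB₂ (by rw [e2, h.1, h.2]; ring)
    refine ⟨by norm_num, ?_⟩
    have hsq := sq_of_mul_sq (x₂ * x₃ * x₄) _ _ hE0 (by push_cast; exact hW)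
    have e : x₄ * (x₂ * x₃) = x₂ * x₃ * x₄ := by ring
    rw [e]
    exact hsq
  · -- (-,+,+)
    exfalso
    have h := one_minus_aux (x₃ : ℤ) x₄ (x₃ - c₃) (x₄ - c₄) hX₃ hX₄ (by
      have e1 : (x₂ : ℤ) = 1 + x₃ + x₄ := by linarith
      have e2 : (x₂ : ℤ) - c₂ = (x₃ - c₃) + (x₄ - c₄) := by linarith
      rw [e2, e1] at S2
      linear_combination (-1 : ℤ) * S2)
    exact hB₂ (by
      have e2 : (x₂ : ℤ) - c₂ = (x₃ - c₃) + (x₄ - c₄) := by linarith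
      rw [e2, h.1, h.2]
      ring)
  · -- (-,+,-)
    have e1 : 1 + (x₃ : ℤ) = x₂ + x₄ := by linarith
    have e2 : (x₃ : ℤ) - c₃ = (x₂ - c₂) + (x₄ - c₄) := by linarith
    obtain ⟨hE, hW⟩ := two_minus_aux (x₃ : ℤ) x₂ x₄ (x₂ - c₂) (x₄ - c₄) e1 (by
      rw [e2] at S2
      linear_combination S2)
    have hE0 : ((x₂ : ℤ) - c₂) * x₄ - (x₄ - c₄) * x₂ ≠ 0 := by
      intro h0
      rw [h0] at hE
      have h := sum_sq_zero (x₂ - c₂) (x₄ - c₄) (x₂ : ℤ) x₄ hX₂ hX₄ (by linarith)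
      exact hB₂ h.1
    refine ⟨by norm_num, ?_⟩
    have hsq := sq_of_mul_sq (x₃ * x₂ * x₄) _ _ hE0 (by push_cast; exact hW)
    have e : x₄ * (x₂ * x₃) = x₃ * x₂ * x₄ := by ring
    rw [e]
    exact hsq
  · -- (-,-,+)
    have e1 : 1 + (x₄ : ℤ) = x₂ + x₃ := by linarith
    have e2 : (x₄ : ℤ) - c₄ = (x₂ - c₂) + (x₃ - c₃) := by linarith
    obtain ⟨hE, hW⟩ := two_minus_aux (x₄ : ℤ) x₂ x₃ (x₂ - c₂) (x₃ - c₃) e1 (by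
      rw [e2] at S2
      linear_combination S2)
    have hE0 : ((x₂ : ℤ) - c₂) * x₃ - (x₃ - c₃) * x₂ ≠ 0 := by
      intro h0
      rw [h0] at hE
      have h := sum_sq_zero (x₂ - c₂) (x₃ - c₃) (x₂ : ℤ) x₃ hX₂ hX₃ (by linarith)
      exact hB₂ h.1
    refine ⟨by norm_num, ?_⟩
    have hsq := sq_of_mul_sq (x₄ * x₂ * x₃) _ _ hE0 (by push_cast; exact hW)
    have e : x₄ * (x₂ * x₃) = x₄ * x₂ * x₃ := by ring
    rw [e]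
    exact hsq
  · exfalso
    linarith

/-- the arithmetic of the relations attached to an involution, even case -/
theorem four_term_two (a₂ a₃ δ : ℤ) (h₂ : a₂ = 1 ∨ a₂ = -1) (h₃ : a₃ = 1 ∨ a₃ = -1)
    (hδ : δ = 1 ∨ δ = -1) (x₂ x₃ x₄ : ℕ) (hx₂ : 0 < x₂) (hx₃ : 0 < x₃) (hx₄ : 0 < x₄)
    (hb₂ : a₂ = -1 → 15 ≤ x₂) (hb₃ : a₃ = -1 → 15 ≤ x₃)
    (R1 : 1 + a₂ * x₂ + a₃ * x₃ - δ * x₄ = 0)
    (R2 : (x₂ : ℤ) * x₃ * x₄ + a₂ * x₃ * x₄ + a₃ * x₂ * x₄ - 9 * δ * x₂ * x₃ = 0) :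
    a₂ = 1 ∧ x₂ = 1 := by
  have hX₂ : (0 : ℤ) < x₂ := by exact_mod_cast hx₂
  have hX₃ : (0 : ℤ) < x₃ := by exact_mod_cast hx₃
  have hX₄ : (0 : ℤ) < x₄ := by exact_mod_cast hx₄
  have hX₂' : (1 : ℤ) ≤ x₂ := by exact_mod_cast hx₂
  have hX₃' : (1 : ℤ) ≤ x₃ := by exact_mod_cast hx₃
  have hX₄' : (1 : ℤ) ≤ x₄ := by exact_mod_cast hx₄
  rcases h₂ with rfl | rfl <;> rcases h₃ with rfl | rfl <;> rcases hδ with rfl | rfl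
  · -- (1,1,1)
    refine ⟨rfl, ?_⟩
    have e1 : (x₄ : ℤ) = 1 + x₂ + x₃ := by linarith
    rw [e1] at R2
    have key : (x₂ : ℤ) * (x₃ - 1) ^ 2 + x₃ * (x₂ - 1) ^ 2 + (x₂ - x₃) ^ 2 = 0 := by
      linear_combination R2
    have h1 : 0 ≤ (x₂ : ℤ) * (x₃ - 1) ^ 2 := mul_nonneg hX₂.le (sq_nonneg _)
    have h2 : 0 ≤ (x₃ : ℤ) * (x₂ - 1) ^ 2 := mul_nonneg hX₃.le (sq_nonneg _)
    have h3 : 0 ≤ ((x₂ : ℤ) - x₃) ^ 2 := sq_nonneg _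
    have h4 : (x₃ : ℤ) * (x₂ - 1) ^ 2 = 0 := by linarith
    rcases mul_eq_zero.mp h4 with h5 | h5
    · exact absurd h5 hX₃.ne'
    · have h6 : (x₂ : ℤ) - 1 = 0 := pow_eq_zero_iff (by norm_num) |>.mp h5
      have h7 : (x₂ : ℤ) = 1 := by linarith
      exact_mod_cast h7
  · exfalso
    linarith
  · -- (1,-1,1)
    exfalso
    have hb := hb₃ rfl
    have hB : (15 : ℤ) ≤ x₃ := by exact_mod_cast hb
    have e1 : (x₂ : ℤ) = x₃ + x₄ - 1 := by linarith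
    have key : ((x₄ : ℤ) - 9) * (x₂ * x₃) = x₄ * (x₄ - 1) := by
      rw [e1] at R2 ⊢
      linear_combination R2
    by_cases h9 : (x₄ : ℤ) ≤ 9
    · have h1 : 0 < (x₂ : ℤ) * x₃ := mul_pos hX₂ hX₃
      have h2 : 0 ≤ (x₄ : ℤ) * (x₄ - 1) := mul_nonneg hX₄.le (by linarith)
      have h3 : ((x₄ : ℤ) - 9) * (x₂ * x₃) ≤ 0 :=
        mul_nonpos_of_nonpos_of_nonneg (by linarith) h1.le
      have h4 : (x₄ : ℤ) * (x₄ - 1) = 0 := by linarith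
      have h5 : (x₄ : ℤ) = 1 := by
        rcases mul_eq_zero.mp h4 with h | h
        · linarith
        · linarith
      rw [h5] at key
      linarith
    · have h10 : (10 : ℤ) ≤ x₄ := by linarith
      have h1 : (15 : ℤ) * (x₄ + 14) ≤ x₂ * x₃ := by
        have h2 : (x₄ : ℤ) + 14 ≤ x₂ := by linarith
        calc (15 : ℤ) * (x₄ + 14) ≤ x₃ * (x₄ + 14) :=
              mul_le_mul_of_nonneg_right hB (by linarith)
          _ ≤ x₃ * x₂ := mul_le_mul_of_nonneg_left h2 hX₃.le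
          _ = x₂ * x₃ := by ring
      have h3 : ((x₄ : ℤ) - 9) * (15 * (x₄ + 14)) ≤ (x₄ - 9) * (x₂ * x₃) :=
        mul_le_mul_of_nonneg_left h1 (by linarith)
      nlinarith
  · -- (1,-1,-1)
    exfalso
    have e1 : (x₃ : ℤ) = 1 + x₂ + x₄ := by linarith
    have h1 : 0 < (x₂ : ℤ) * x₃ * x₄ := mul_pos (mul_pos hX₂ hX₃) hX₄
    have h2 : 0 < (x₂ : ℤ) * x₃ := mul_pos hX₂ hX₃
    have h3 : 0 < (x₄ : ℤ) * (1 + x₄) := mul_pos hX₄ (by linarith)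
    rw [e1] at R2
    nlinarith
  · -- (-1,1,1)
    exfalso
    have hb := hb₂ rfl
    have hB : (15 : ℤ) ≤ x₂ := by exact_mod_cast hb
    have e1 : (x₃ : ℤ) = x₂ + x₄ - 1 := by linarith
    have key : ((x₄ : ℤ) - 9) * (x₂ * x₃) = x₄ * (x₄ - 1) := by
      rw [e1] at R2 ⊢
      linear_combination R2
    by_cases h9 : (x₄ : ℤ) ≤ 9
    · have h1 : 0 < (x₂ : ℤ) * x₃ := mul_pos hX₂ hX₃
      have h2 : 0 ≤ (x₄ : ℤ) * (x₄ - 1) := mul_nonneg hX₄.le (by linarith)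
      have h3 : ((x₄ : ℤ) - 9) * (x₂ * x₃) ≤ 0 :=
        mul_nonpos_of_nonpos_of_nonneg (by linarith) h1.le
      have h4 : (x₄ : ℤ) * (x₄ - 1) = 0 := by linarith
      have h5 : (x₄ : ℤ) = 1 := by
        rcases mul_eq_zero.mp h4 with h | h
        · linarith
        · linarith
      rw [h5] at key
      linarith
    · have h10 : (10 : ℤ) ≤ x₄ := by linarith
      have h1 : (15 : ℤ) * (x₄ + 14) ≤ x₂ * x₃ := by
        have h2 : (x₄ : ℤ) + 14 ≤ x₃ := by linarith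
        calc (15 : ℤ) * (x₄ + 14) ≤ x₂ * (x₄ + 14) :=
              mul_le_mul_of_nonneg_right hB (by linarith)
          _ ≤ x₂ * x₃ := mul_le_mul_of_nonneg_left h2 hX₂.le
      have h3 : ((x₄ : ℤ) - 9) * (15 * (x₄ + 14)) ≤ (x₄ - 9) * (x₂ * x₃) :=
        mul_le_mul_of_nonneg_left h1 (by linarith)
      nlinarith
  · -- (-1,1,-1)
    exfalso
    have e1 : (x₂ : ℤ) = 1 + x₃ + x₄ := by linarith
    have h1 : 0 < (x₂ : ℤ) * x₃ * x₄ := mul_pos (mul_pos hX₂ hX₃) hX₄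
    have h2 : 0 < (x₂ : ℤ) * x₃ := mul_pos hX₂ hX₃
    have h3 : 0 < (x₄ : ℤ) * (1 + x₄) := mul_pos hX₄ (by linarith)
    rw [e1] at R2
    nlinarith
  · exfalso
    linarith
  · -- (-1,-1,-1)
    exfalso
    have hB₂ : (15 : ℤ) ≤ x₂ := by exact_mod_cast hb₂ rfl
    have hB₃ : (15 : ℤ) ≤ x₃ := by exact_mod_cast hb₃ rfl
    have e1 : (x₄ : ℤ) = x₂ + x₃ - 1 := by linarith
    have h1 : 0 < ((x₂ : ℤ) - 1) * (x₃ - 1) - 1 := by nlinarith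
    have h2 : 0 < (x₂ : ℤ) * x₃ := mul_pos hX₂ hX₃
    have h3 : (x₄ : ℤ) * (((x₂ : ℤ) - 1) * (x₃ - 1) - 1) + 9 * (x₂ * x₃) = 0 := by
      linear_combination R2
    have h4 : 0 < (x₄ : ℤ) * (((x₂ : ℤ) - 1) * (x₃ - 1) - 1) := mul_pos hX₄ h1
    linarith

end Cfsg.Agent.Lib.Helper24
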