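import Mathlib
import Cfsg.Agent.Lib.Helper24.Sp2Sq

/-!
A Sylow 2-subgroup `T` of `GL_2(F)` (`F` a finite field of odd order) whose determinant-one
part has all squares in its commutator subgroup, and which (for `4 ∣ q + 1`) contains an
involution `t` such that every element of `T` has determinant `1` or `det t`.
-/

namespace Cfsg.Agent.Lib.Helper24.GL2Good

open Matrix

open scoped commutatorElement

/-- squares in a Sylow 2-subgroup of `SL_2(F)` lie in its commutator subgroup
(as subgroups of `SL_2(F)`) -/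
theorem sl2_sylow_sq_mem {F : Type*} [Field F] [Fintype F] (hF : Odd (Fintype.card F))
    (P : Sylow 2 (SpecialLinearGroup (Fin 2) F)) (u : SpecialLinearGroup (Fin 2) F)
    (hu : u ∈ (P : Subgroup (SpecialLinearGroup (Fin 2) F))) :
    u ^ 2 ∈ ⁅(P : Subgroup (SpecialLinearGroup (Fin 2) F)),
      (P : Subgroup (SpecialLinearGroup (Fin 2) F))⁆ := by
  classical
  obtain ⟨k, hk, ⟨θ⟩⟩ := Cfsg.Agent.S0261.result hF P
  have h1 := Sp2Sq.quat_sq_mem k hk (θ ⟨u, hu⟩)
  have h2 : (commutator (QuaternionGroup (2 ^ k))).map θ.symm.toMonoidHom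
      ≤ commutator ↥(P : Subgroup (SpecialLinearGroup (Fin 2) F)) := by
    rw [commutator_def, Subgroup.map_commutator, commutator_def]
    exact Subgroup.commutator_mono le_top le_top
  have h3 := h2 (Subgroup.mem_map_of_mem θ.symm.toMonoidHom h1)
  have h4 : θ.symm.toMonoidHom (θ ⟨u, hu⟩ ^ 2)
      = (⟨u, hu⟩ : ↥(P : Subgroup (SpecialLinearGroup (Fin 2) F))) ^ 2 := by
    rw [map_pow]
    congr 1
    exact θ.symm_apply_apply _
  rw [h4] at h3
  have h5 := Subgroup.mem_map_of_mem
    (P : Subgroup (SpecialLinearGroup (Fin 2) F)).subtype h3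
  rw [Subgroup.map_subtype_commutator] at h5
  exact h5

/-- a determinant-one element of `GL` comes from `SL` -/
theorem exists_sl {F : Type*} [Field F] (t : GeneralLinearGroup (Fin 2) F)
    (ht : GeneralLinearGroup.det t = 1) :
    ∃ s : SpecialLinearGroup (Fin 2) F, SpecialLinearGroup.toGL s = t := by
  refine ⟨⟨(t : Matrix (Fin 2) (Fin 2) F), ?_⟩, Units.ext rfl⟩
  have h := congrArg Units.val ht
  exact h

/-- the involution `diag(1, -1)` -/
def t0 (F : Type*) [Field F] : GeneralLinearGroup (Fin 2) F :=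
  ⟨!![1, 0; 0, -1], !![1, 0; 0, -1],
    by simp [Matrix.one_fin_two],
    by simp [Matrix.one_fin_two]⟩

theorem t0_sq (F : Type*) [Field F] : t0 F ^ 2 = 1 := by
  apply Units.ext
  rw [pow_two]
  show (!![1, 0; 0, -1] : Matrix (Fin 2) (Fin 2) F) * !![1, 0; 0, -1] = 1
  simp [Matrix.one_fin_two]

theorem det_t0 (F : Type*) [Field F] : GeneralLinearGroup.det (t0 F) = -1 := by
  apply Units.ext
  show Matrix.det (!![1, 0; 0, -1] : Matrix (Fin 2) (Fin 2) F) = ((-1 : Fˣ) : F)
  simp [Matrix.det_fin_two]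

theorem exists_sylow_gl2_good {F : Type*} [Field F] [Fintype F] (hF : Odd (Fintype.card F)) :
    ∃ T : Sylow 2 (Matrix.GeneralLinearGroup (Fin 2) F),
      (∀ t ∈ (T : Subgroup (Matrix.GeneralLinearGroup (Fin 2) F)) ⊓
          (Matrix.GeneralLinearGroup.det : Matrix.GeneralLinearGroup (Fin 2) F →* Fˣ).ker,
        t ^ 2 ∈ ⁅(T : Subgroup (Matrix.GeneralLinearGroup (Fin 2) F)) ⊓
            (Matrix.GeneralLinearGroup.det : Matrix.GeneralLinearGroup (Fin 2) F →* Fˣ).ker,
          (T : Subgroup (Matrix.GeneralLinearGroup (Fin 2) F)) ⊓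
            (Matrix.GeneralLinearGroup.det : Matrix.GeneralLinearGroup (Fin 2) F →* Fˣ).ker⁆) ∧
      (4 ∣ Fintype.card F + 1 →
        ∃ t ∈ (T : Subgroup (Matrix.GeneralLinearGroup (Fin 2) F)), t ^ 2 = 1 ∧
          ∀ s ∈ (T : Subgroup (Matrix.GeneralLinearGroup (Fin 2) F)),
            Matrix.GeneralLinearGroup.det s = 1 ∨
              Matrix.GeneralLinearGroup.det s = Matrix.GeneralLinearGroup.det t) := by
  classical
  obtain ⟨Q0⟩ : Nonempty (Sylow 2 (SpecialLinearGroup (Fin 2) F)) := inferInstance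
  let toGL : SpecialLinearGroup (Fin 2) F →* GeneralLinearGroup (Fin 2) F :=
    SpecialLinearGroup.toGL
  have hinj : Function.Injective toGL := SpecialLinearGroup.toGL_injective
  have hpg : IsPGroup 2 ((Q0 : Subgroup (SpecialLinearGroup (Fin 2) F)).map toGL) :=
    Q0.isPGroup'.map toGL
  obtain ⟨T, hT⟩ := hpg.exists_le_sylow
  refine ⟨T, ?_, ?_⟩
  · have hcomap : (T : Subgroup (GeneralLinearGroup (Fin 2) F)).comap toGL
        = (Q0 : Subgroup (SpecialLinearGroup (Fin 2) F)) := by
      have h1 : IsPGroup 2 ((T : Subgroup (GeneralLinearGroup (Fin 2) F)).comap toGL) :=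
        T.isPGroup'.comap_of_injective toGL hinj
      have h2 : (Q0 : Subgroup (SpecialLinearGroup (Fin 2) F))
          ≤ (T : Subgroup (GeneralLinearGroup (Fin 2) F)).comap toGL := by
        intro x hx
        exact hT (Subgroup.mem_map_of_mem toGL hx)
      exact Q0.is_maximal' h1 h2
    have heq : (T : Subgroup (GeneralLinearGroup (Fin 2) F)) ⊓
          (GeneralLinearGroup.det : GeneralLinearGroup (Fin 2) F →* Fˣ).ker
        = (Q0 : Subgroup (SpecialLinearGroup (Fin 2) F)).map toGL := by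
      apply le_antisymm
      · rintro t ⟨htT, htd⟩
        obtain ⟨s, rfl⟩ := exists_sl t (MonoidHom.mem_ker.mp htd)
        refine Subgroup.mem_map_of_mem toGL ?_
        rw [← hcomap]
        exact htT
      · rintro _ ⟨s, hs, rfl⟩
        refine ⟨hT (Subgroup.mem_map_of_mem toGL hs), ?_⟩
        show toGL s ∈ (GeneralLinearGroup.det : GeneralLinearGroup (Fin 2) F →* Fˣ).ker
        rw [MonoidHom.mem_ker]
        exact SpecialLinearGroup.coeToGL_det s
    rw [heq]
    rintro _ ⟨s, hs, rfl⟩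
    rw [← map_pow, ← Subgroup.map_commutator]
    exact Subgroup.mem_map_of_mem toGL (sl2_sylow_sq_mem hF Q0 s hs)
  · intro hq
    have hpz : IsPGroup 2 (Subgroup.zpowers (t0 F)) := by
      rintro ⟨g, hg⟩
      obtain ⟨z, rfl⟩ := Subgroup.mem_zpowers_iff.mp hg
      refine ⟨1, Subtype.ext ?_⟩
      show (t0 F ^ z) ^ (2 ^ 1) = 1
      rw [pow_one, ← zpow_natCast, ← _root_.zpow_mul, mul_comm, _root_.zpow_mul, zpow_natCast,
        t0_sq, _root_.one_zpow]
    obtain ⟨T', hT'⟩ := hpz.exists_le_sylow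
    obtain ⟨c, hc⟩ := MulAction.exists_smul_eq (GeneralLinearGroup (Fin 2) F) T' T
    have htT : c * t0 F * c⁻¹ ∈ (T : Subgroup (GeneralLinearGroup (Fin 2) F)) := by
      rw [← hc, Sylow.coe_subgroup_smul, Subgroup.mem_smul_pointwise_iff_exists]
      exact ⟨t0 F, hT' (Subgroup.mem_zpowers _), by rw [MulAut.smul_def, MulAut.conj_apply]⟩
    have hdet : GeneralLinearGroup.det (c * t0 F * c⁻¹) = -1 := by
      rw [map_mul, map_mul, map_inv, mul_comm, inv_mul_cancel_left, det_t0]
    refine ⟨c * t0 F * c⁻¹, htT, ?_, ?_⟩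
    · rw [conj_pow, t0_sq, mul_one, mul_inv_cancel]
    · intro s hs
      rw [hdet]
      obtain ⟨j, hj⟩ := T.isPGroup' ⟨s, hs⟩
      have hj' : s ^ (2 ^ j) = 1 := congrArg Subtype.val hj
      set d : Fˣ := GeneralLinearGroup.det s with hd
      have hd1 : d ^ (2 ^ j) = 1 := by
        rw [hd, ← map_pow, hj', map_one]
      have hd2 : d ^ (Fintype.card F - 1) = 1 := by
        rw [← Fintype.card_units]
        exact pow_card_eq_one
      have ho1 : orderOf d ∣ 2 ^ j := orderOf_dvd_of_pow_eq_one hd1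
      have ho2 : orderOf d ∣ Fintype.card F - 1 := orderOf_dvd_of_pow_eq_one hd2
      obtain ⟨i, -, hi⟩ := (Nat.dvd_prime_pow Nat.prime_two).mp ho1
      have hcard : 1 < Fintype.card F := Fintype.one_lt_card
      have hi1 : i ≤ 1 := by
        by_contra hcon
        have h4 : 4 ∣ orderOf d := by
          rw [hi]
          exact (show (4 : ℕ) = 2 ^ 2 by norm_num) ▸ pow_dvd_pow 2 (by omega)
        have h4' : 4 ∣ Fintype.card F - 1 := h4.trans ho2
        obtain ⟨a, ha⟩ := h4'
        obtain ⟨b, hb⟩ := hq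
        omega
      have hsq : d ^ 2 = 1 := by
        have : orderOf d ∣ 2 := by
          rw [hi]
          interval_cases i <;> norm_num
        exact orderOf_dvd_iff_pow_eq_one.mp this
      have hsqF : (d : F) ^ 2 = 1 := by
        have := congrArg Units.val hsq
        simpa using this
      rcases sq_eq_one_iff.mp hsqF with h | h
      · left
        exact Units.ext h
      · right
        exact Units.ext (by simpa using h)

end Cfsg.Agent.Lib.Helper24.GL2Good
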