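import Mathlib
import Cfsg.Agent.Lib.Helper24.GL2Good

/-!
Every Sylow 2-subgroup `S` of `GL_2(F)` (`F` a finite field of odd order): squares of the
determinant-one part lie in its commutator subgroup, and (for `4 ∣ q + 1`) `S` contains an
involution whose determinant generates the determinants of `S`.
Obtained from `GL2Good.exists_sylow_gl2_good` by Sylow conjugacy.
-/

namespace Cfsg.Agent.Lib.Helper24.GL2Any

open Matrix

open scoped commutatorElement

/-- transport along a conjugation between two Sylow subgroups -/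
theorem exists_conj {F : Type*} [Field F] [Fintype F]
    (T S : Sylow 2 (GeneralLinearGroup (Fin 2) F)) :
    ∃ φ : GeneralLinearGroup (Fin 2) F →* GeneralLinearGroup (Fin 2) F,
      (∀ x ∈ (T : Subgroup (GeneralLinearGroup (Fin 2) F)),
        φ x ∈ (S : Subgroup (GeneralLinearGroup (Fin 2) F))) ∧
      (∀ v ∈ (S : Subgroup (GeneralLinearGroup (Fin 2) F)),
        ∃ x ∈ (T : Subgroup (GeneralLinearGroup (Fin 2) F)), φ x = v) ∧
      (∀ x, GeneralLinearGroup.det (φ x) = GeneralLinearGroup.det x) := by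
  classical
  obtain ⟨c, hc⟩ := MulAction.exists_smul_eq (GeneralLinearGroup (Fin 2) F) T S
  refine ⟨(MulAut.conj c).toMonoidHom, ?_, ?_, ?_⟩
  · intro x hx
    rw [← hc, Sylow.coe_subgroup_smul, Subgroup.mem_smul_pointwise_iff_exists]
    exact ⟨x, hx, rfl⟩
  · intro v hv
    rw [← hc, Sylow.coe_subgroup_smul, Subgroup.mem_smul_pointwise_iff_exists] at hv
    obtain ⟨x, hx, rfl⟩ := hv
    exact ⟨x, hx, rfl⟩
  · intro x
    show GeneralLinearGroup.det (c * x * c⁻¹) = GeneralLinearGroup.det x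
    rw [map_mul, map_mul, map_inv, mul_comm, inv_mul_cancel_left]

theorem gl2_sylow_ker_det_sq {F : Type*} [Field F] [Fintype F] (hF : Odd (Fintype.card F))
    (S : Sylow 2 (GeneralLinearGroup (Fin 2) F)) :
    ∀ v ∈ (S : Subgroup (GeneralLinearGroup (Fin 2) F)) ⊓
        (GeneralLinearGroup.det : GeneralLinearGroup (Fin 2) F →* Fˣ).ker,
      v ^ 2 ∈ ⁅(S : Subgroup (GeneralLinearGroup (Fin 2) F)) ⊓
          (GeneralLinearGroup.det : GeneralLinearGroup (Fin 2) F →* Fˣ).ker,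
        (S : Subgroup (GeneralLinearGroup (Fin 2) F)) ⊓
          (GeneralLinearGroup.det : GeneralLinearGroup (Fin 2) F →* Fˣ).ker⁆ := by
  classical
  obtain ⟨T, hT, -⟩ := GL2Good.exists_sylow_gl2_good hF
  obtain ⟨φ, h1, h2, h3⟩ := exists_conj T S
  intro v hv
  obtain ⟨x, hx, rfl⟩ := h2 v hv.1
  have hxk : x ∈ (GeneralLinearGroup.det : GeneralLinearGroup (Fin 2) F →* Fˣ).ker := by
    rw [MonoidHom.mem_ker, ← h3 x]
    exact MonoidHom.mem_ker.mp hv.2
  have hle : ((T : Subgroup (GeneralLinearGroup (Fin 2) F)) ⊓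
      (GeneralLinearGroup.det : GeneralLinearGroup (Fin 2) F →* Fˣ).ker).map φ
      ≤ (S : Subgroup (GeneralLinearGroup (Fin 2) F)) ⊓
        (GeneralLinearGroup.det : GeneralLinearGroup (Fin 2) F →* Fˣ).ker := by
    rintro _ ⟨y, hy, rfl⟩
    refine ⟨h1 y hy.1, ?_⟩
    show φ y ∈ (GeneralLinearGroup.det : GeneralLinearGroup (Fin 2) F →* Fˣ).ker
    rw [MonoidHom.mem_ker, h3 y]
    exact MonoidHom.mem_ker.mp hy.2
  have h4 := Subgroup.mem_map_of_mem φ (hT x ⟨hx, hxk⟩)
  rw [Subgroup.map_commutator, map_pow] at h4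
  exact Subgroup.commutator_mono hle hle h4

theorem gl2_sylow_invol {F : Type*} [Field F] [Fintype F] (hq : 4 ∣ Fintype.card F + 1)
    (S : Sylow 2 (GeneralLinearGroup (Fin 2) F)) :
    ∃ u ∈ (S : Subgroup (GeneralLinearGroup (Fin 2) F)), u ^ 2 = 1 ∧
      ∀ s ∈ (S : Subgroup (GeneralLinearGroup (Fin 2) F)), ∃ k : ℕ,
        (GeneralLinearGroup.det : GeneralLinearGroup (Fin 2) F →* Fˣ) s
          = (GeneralLinearGroup.det : GeneralLinearGroup (Fin 2) F →* Fˣ) u ^ k := by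
  classical
  have hF : Odd (Fintype.card F) := by
    obtain ⟨b, hb⟩ := hq
    exact ⟨2 * b - 1, by omega⟩
  obtain ⟨T, -, hT⟩ := GL2Good.exists_sylow_gl2_good hF
  obtain ⟨t, ht, htsq, htd⟩ := hT hq
  obtain ⟨φ, h1, h2, h3⟩ := exists_conj T S
  refine ⟨φ t, h1 t ht, ?_, ?_⟩
  · rw [← map_pow, htsq, map_one]
  · intro s hs
    obtain ⟨x, hx, rfl⟩ := h2 s hs
    rcases htd x hx with h | h
    · exact ⟨0, by rw [pow_zero, h3, h]⟩
    · exact ⟨1, by rw [pow_one, h3, h3, h]⟩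

end Cfsg.Agent.Lib.Helper24.GL2Any
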