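import Mathlib

set_option autoImplicit false

namespace Cfsg.Agent.Lib.Helper24

/-- an integer vector of square norm two has exactly two nonzero entries, each `±1` -/
theorem norm_two_vec {B : Type*} [Fintype B] [DecidableEq B] (f : B → ℤ)
    (h : ∑ b, f b ^ 2 = 2) :
    ∃ a b : B, a ≠ b ∧ (f a = 1 ∨ f a = -1) ∧ (f b = 1 ∨ f b = -1) ∧
      ∀ x, x ≠ a → x ≠ b → f x = 0 := by
  classical
  have hle : ∀ x, f x ^ 2 ≤ 2 := by
    intro x
    rw [← h]
    exact Finset.single_le_sum (fun b _ => sq_nonneg (f b)) (Finset.mem_univ x)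
  have hval : ∀ x, f x = 0 ∨ f x = 1 ∨ f x = -1 := by
    intro x
    have h1 := hle x
    have h2 : -1 ≤ f x := by nlinarith
    have h3 : f x ≤ 1 := by nlinarith
    omega
  have hsq : ∀ x, f x ^ 2 = if f x ≠ 0 then 1 else 0 := by
    intro x
    rcases hval x with h0 | h0 | h0 <;> simp [h0]
  have hcard : (Finset.univ.filter (fun x => f x ≠ 0)).card = 2 := by
    have h1 : ∑ b, f b ^ 2 = ((Finset.univ.filter (fun x => f x ≠ 0)).card : ℤ) := by
      rw [Finset.sum_congr rfl (fun x _ => hsq x), Finset.sum_boole]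
    rw [h] at h1
    exact_mod_cast h1.symm
  obtain ⟨a, b, hab, hS⟩ := Finset.card_eq_two.mp hcard
  have ha : f a ≠ 0 := by
    have : a ∈ Finset.univ.filter (fun x => f x ≠ 0) := by rw [hS]; simp
    exact (Finset.mem_filter.mp this).2
  have hb : f b ≠ 0 := by
    have : b ∈ Finset.univ.filter (fun x => f x ≠ 0) := by rw [hS]; simp
    exact (Finset.mem_filter.mp this).2
  refine ⟨a, b, hab, ?_, ?_, ?_⟩
  · rcases hval a with h0 | h0 | h0
    · exact absurd h0 ha
    · exact Or.inl h0
    · exact Or.inr h0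
  · rcases hval b with h0 | h0 | h0
    · exact absurd h0 hb
    · exact Or.inl h0
    · exact Or.inr h0
  · intro x hxa hxb
    by_contra hx
    have : x ∈ Finset.univ.filter (fun x => f x ≠ 0) := Finset.mem_filter.mpr ⟨Finset.mem_univ _, hx⟩
    rw [hS] at this
    simp at this
    rcases this with h1 | h1
    · exact hxa h1
    · exact hxb h1

/-- an integer vector of square norm two orthogonal to a positive vector is a difference of two
coordinate vectors -/
theorem root_vec {B : Type*} [Fintype B] [DecidableEq B] (f : B → ℤ) (deg : B → ℤ)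
    (hdeg : ∀ b, 0 < deg b) (h : ∑ b, f b ^ 2 = 2) (h0 : ∑ b, deg b * f b = 0) :
    ∃ a b : B, a ≠ b ∧ ∀ x, f x = (if x = a then 1 else 0) - (if x = b then 1 else 0) := by
  classical
  obtain ⟨a, b, hab, ha, hb, hrest⟩ := norm_two_vec f h
  have hsum : ∑ x, deg x * f x = deg a * f a + deg b * f b := by
    rw [← Finset.sum_subset (Finset.subset_univ {a, b})]
    · rw [Finset.sum_pair hab]
    · intro x _ hx
      have hxa : x ≠ a := fun e => hx (by rw [e]; simp)
      have hxb : x ≠ b := fun e => hx (by rw [e]; simp)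
      rw [hrest x hxa hxb, mul_zero]
  rw [hsum] at h0
  have hda := hdeg a
  have hdb := hdeg b
  rcases ha with ha | ha <;> rcases hb with hb | hb
  · rw [ha, hb] at h0; omega
  · refine ⟨a, b, hab, fun x => ?_⟩
    by_cases hxa : x = a
    · rw [hxa, if_pos rfl, if_neg hab, ha]; rfl
    · by_cases hxb : x = b
      · rw [hxb, if_neg (Ne.symm hab), if_pos rfl, hb]; rfl
      · rw [if_neg hxa, if_neg hxb, hrest x hxa hxb]; rfl
  · refine ⟨b, a, Ne.symm hab, fun x => ?_⟩
    by_cases hxa : x = a
    · rw [hxa, if_pos rfl, if_neg hab, ha]; rfl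
    · by_cases hxb : x = b
      · rw [hxb, if_neg (Ne.symm hab), if_pos rfl, hb]; rfl
      · rw [if_neg hxa, if_neg hxb, hrest x hxa hxb]; rfl
  · rw [ha, hb] at h0; omega

open Classical in
/-- integer vectors with Gram matrix `m + [i ~ j]`, all orthogonal to a positive vector, are a
common vector plus or minus coordinate vectors -/
theorem gram_structure {I B : Type*} [Fintype B] [DecidableEq B] (c : I → B → ℤ) (m : ℤ)
    (R : I → I → Prop) (deg : B → ℤ) (hdeg : ∀ b, 0 < deg b)
    (hG : ∀ i j, ∑ b, c i b * c j b = m + (if R i j then 1 else 0))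
    (hD : ∀ i, ∑ b, deg b * c i b = 0)
    (hR : ∀ i, R i i) (hne : ∃ i j, ¬ R i j) :
    ∃ (δ : ℤ) (c₀ : B → ℤ) (ζ : I → B), (δ = 1 ∨ δ = -1) ∧
      (∀ i b, c i b = c₀ b + (if b = ζ i then δ else 0)) ∧ (∀ i j, ζ i = ζ j ↔ R i j) := by
  have hnorm : ∀ i j, ∑ b, (c i b - c j b) ^ 2 = 2 - 2 * (if R i j then 1 else 0) := by
    intro i j
    have e : ∀ b, (c i b - c j b) ^ 2
        = c i b * c i b - 2 * (c i b * c j b) + c j b * c j b := fun b => by ring
    rw [Finset.sum_congr rfl (fun b _ => e b), Finset.sum_add_distrib, Finset.sum_sub_distrib,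
      ← Finset.mul_sum, hG i i, hG i j, hG j j, if_pos (hR i), if_pos (hR j)]
    ring
  have hsame : ∀ i j, R i j → ∀ b, c i b = c j b := by
    intro i j hij b
    have h1 := hnorm i j
    rw [if_pos hij] at h1
    have h2 : ∑ b, (c i b - c j b) ^ 2 = 0 := by rw [h1]; norm_num
    have h3 := (Finset.sum_eq_zero_iff_of_nonneg (fun b _ => sq_nonneg _)).mp h2 b
      (Finset.mem_univ b)
    have h4 : c i b - c j b = 0 := pow_eq_zero_iff (by norm_num) |>.mp h3
    omega
  have hdiff : ∀ i j, ¬ R i j → ∃ a b : B, a ≠ b ∧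
      ∀ x, c i x - c j x = (if x = a then 1 else 0) - (if x = b then 1 else 0) := by
    intro i j hij
    apply root_vec (fun x => c i x - c j x) deg hdeg
    · rw [hnorm i j, if_neg hij]; norm_num
    · have e : ∀ b, deg b * (c i b - c j b) = deg b * c i b - deg b * c j b :=
        fun b => by ring
      rw [Finset.sum_congr rfl (fun b _ => e b), Finset.sum_sub_distrib, hD i, hD j]
      norm_num
  have hRiff : ∀ i j, R i j ↔ ∀ b, c i b = c j b := by
    intro i j
    refine ⟨hsame i j, fun h => ?_⟩
    by_contra hij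
    have h1 := hG i j
    rw [if_neg hij] at h1
    have h2 := hG i i
    rw [if_pos (hR i)] at h2
    have h3 : ∑ b, c i b * c j b = ∑ b, c i b * c i b :=
      Finset.sum_congr rfl (fun b _ => by rw [h b])
    omega
  obtain ⟨i₀, j₀, hij₀⟩ := hne
  obtain ⟨a₀, -, -, -⟩ := hdiff i₀ j₀ hij₀
  have : Nonempty B := ⟨a₀⟩
  choose! av bv hab hval using fun k (hk : ¬ R i₀ k) => hdiff i₀ k hk
  have hpair : ∀ k l, ¬ R i₀ k → ¬ R i₀ l → av k = av l ∨ bv k = bv l := by
    intro k l hk hl
    by_cases hkl : R k l
    · left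
      have h1 := hval k hk (av k)
      have h2 := hval l hl (av k)
      rw [hsame k l hkl (av k)] at h1
      rw [h1, if_pos rfl, if_neg (hab k hk)] at h2
      by_contra hne
      rw [if_neg hne] at h2
      split_ifs at h2 <;> omega
    · obtain ⟨a'', b'', hab'', hv''⟩ := hdiff k l hkl
      by_contra hcon
      rw [not_or] at hcon
      obtain ⟨hak, hbk⟩ := hcon
      have e : ∀ x, ((if x = av l then (1:ℤ) else 0) - (if x = bv l then 1 else 0))
          - ((if x = av k then 1 else 0) - (if x = bv k then 1 else 0))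
          = (if x = a'' then 1 else 0) - (if x = b'' then 1 else 0) := by
        intro x
        rw [← hval l hl x, ← hval k hk x, ← hv'' x]; ring
      have e1 := e (av l)
      have e2 := e (bv k)
      rw [if_pos rfl, if_neg (hab l hl), if_neg (Ne.symm hak)] at e1
      rw [if_neg hbk, if_neg (Ne.symm (hab k hk)), if_pos rfl] at e2
      by_cases h1 : av l = bv k
      · rw [if_pos h1] at e1
        split_ifs at e1 <;> omega
      · rw [if_neg h1] at e1
        rw [if_neg (Ne.symm h1)] at e2
        have h2 : av l = a'' := by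
          by_contra h2
          rw [if_neg h2] at e1
          split_ifs at e1 <;> omega
        have h3 : bv k = a'' := by
          by_contra h3
          rw [if_neg h3] at e2
          split_ifs at e2 <;> omega
        exact h1 (h2.trans h3.symm)
  have hmain : ∃ (δ : ℤ) (c₀ : B → ℤ) (ζ : I → B), (δ = 1 ∨ δ = -1) ∧
      (∀ i b, c i b = c₀ b + (if b = ζ i then δ else 0)) := by
    by_cases hA : ∀ k l, ¬ R i₀ k → ¬ R i₀ l → av k = av l
    · refine ⟨1, fun x => c i₀ x - (if x = av j₀ then 1 else 0),
        fun i => if R i₀ i then av j₀ else bv i, Or.inl rfl, ?_⟩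
      intro i b
      by_cases hi : R i₀ i
      · simp only [if_pos hi]
        rw [← hsame i₀ i hi b]
        ring
      · simp only [if_neg hi]
        have h1 := hval i hi b
        rw [hA i j₀ hi hij₀] at h1
        linarith
    · have hex : ∃ k l, ¬ R i₀ k ∧ ¬ R i₀ l ∧ av k ≠ av l := by
        by_contra hno
        apply hA
        intro k l hk hl
        by_contra hkl
        exact hno ⟨k, l, hk, hl, hkl⟩
      obtain ⟨k, l, hk, hl, hkl⟩ := hex
      have hbkl : bv k = bv l := (hpair k l hk hl).resolve_left hkl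
      have hB : ∀ k', ¬ R i₀ k' → bv k' = bv k := by
        intro k' hk'
        by_contra hb
        have h1 : av k' = av k := (hpair k' k hk' hk).resolve_right hb
        have h2 : av k' = av l := (hpair k' l hk' hl).resolve_right (by rw [← hbkl]; exact hb)
        exact hkl (h1.symm.trans h2)
      refine ⟨-1, fun x => c i₀ x + (if x = bv k then 1 else 0),
        fun i => if R i₀ i then bv k else av i, Or.inr rfl, ?_⟩
      intro i b
      by_cases hi : R i₀ i
      · simp only [if_pos hi]
        rw [← hsame i₀ i hi b]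
        split_ifs <;> ring
      · simp only [if_neg hi]
        have h1 := hval i hi b
        rw [hB i hi] at h1
        split_ifs at h1 ⊢ <;> linarith
  obtain ⟨δ, c₀, ζ, hδ, hform⟩ := hmain
  refine ⟨δ, c₀, ζ, hδ, hform, fun i j => ?_⟩
  rw [hRiff]
  constructor
  · intro h b
    rw [hform i b, hform j b, h]
  · intro h
    have h1 := h (ζ i)
    rw [hform i, hform j, if_pos rfl] at h1
    by_contra hne
    rw [if_neg hne] at h1
    rcases hδ with hδ | hδ <;> omega

end Cfsg.Agent.Lib.Helper24
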