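import Mathlib
import Cfsg.Agent.Lib.Helper3.SpSqDL

/-!
Squares in the "determinant one" part of a monomial subgroup `T ≀ H` lie in the commutator
subgroup of that part, given the same for `T ⊓ ker δ` and for `H`, and either an involution of
`T` carrying the only nontrivial value of `δ` on `T`, or transitivity of `H`.
-/

set_option autoImplicit false

namespace Cfsg.Agent.Lib.Helper24.MonDet

open Cfsg.Agent.Lib.Helper3

open scoped commutatorElement

universe u v w

section abstract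

variable {X : Type v} [Group X]

/-- the elements of `K` whose square lies in the commutator subgroup of `K` -/
def sqSub (K : Subgroup X) : Subgroup X where
  carrier := {x | x ∈ K ∧ x ^ 2 ∈ ⁅K, K⁆}
  mul_mem' := by
    rintro a b ⟨ha, ha2⟩ ⟨hb, hb2⟩
    refine ⟨K.mul_mem ha hb, ?_⟩
    have h1 : (a * b) ^ 2 = a ^ 2 * ⁅a⁻¹, b⁆ * b ^ 2 := by
      rw [commutatorElement_def, pow_two, pow_two, pow_two]
      group
    rw [h1]
    exact Subgroup.mul_mem _ (Subgroup.mul_mem _ ha2
      (Subgroup.commutator_mem_commutator (K.inv_mem ha) hb)) hb2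
  one_mem' := ⟨K.one_mem, by rw [one_pow]; exact Subgroup.one_mem _⟩
  inv_mem' := by
    rintro a ⟨ha, ha2⟩
    exact ⟨K.inv_mem ha, by rw [inv_pow]; exact Subgroup.inv_mem _ ha2⟩

theorem conj_mem_sqSub {K : Subgroup X} {b x : X} (hb : ∀ y ∈ K, b * y * b⁻¹ ∈ K)
    (hx : x ∈ sqSub K) : b * x * b⁻¹ ∈ sqSub K := by
  refine ⟨hb x hx.1, ?_⟩
  rw [conj_pow]
  have hle : K.map (MulAut.conj b).toMonoidHom ≤ K := by
    rintro _ ⟨y, hy, rfl⟩
    exact hb y hy
  have h1 : b * x ^ 2 * b⁻¹ ∈ (⁅K, K⁆).map (MulAut.conj b).toMonoidHom := ⟨x ^ 2, hx.2, rfl⟩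
  rw [Subgroup.map_commutator] at h1
  exact Subgroup.commutator_mono hle hle h1

end abstract

section main

variable {Ω : Type} [Fintype Ω] {D : Type u} {X : Type v} {A : Type w}
  [Group D] [Group X] [CommGroup A]

theorem sub_inf_ker_sq (S : MonSys Ω D X) (T : Subgroup D) (H : Subgroup (Equiv.Perm Ω))
    (δ : D →* A) (Δ : X →* A) (hι : ∀ g : Ω → D, Δ (S.ι g) = ∏ i, δ (g i))
    (hπ : ∀ σ : Equiv.Perm Ω, Δ (S.π σ) = 1)
    (hT : ∀ t ∈ T ⊓ δ.ker, t ^ 2 ∈ ⁅T ⊓ δ.ker, T ⊓ δ.ker⁆)
    (hH : ∀ σ ∈ H, σ ^ 2 ∈ ⁅H, H⁆)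
    (hcase : (∃ u ∈ T, u ^ 2 = 1 ∧ ∀ s ∈ T, δ s = 1 ∨ δ s = δ u) ∨
      (∀ i k : Ω, ∃ σ ∈ H, σ i = k)) :
    ∀ x ∈ S.sub T H ⊓ Δ.ker, x ^ 2 ∈ ⁅S.sub T H ⊓ Δ.ker, S.sub T H ⊓ Δ.ker⁆ := by
  classical
  have hιB : ∀ g : Ω → D, (∀ i, g i ∈ T) → S.ι g ∈ S.sub T H := fun g hg =>
    ⟨g, hg, 1, H.one_mem, by rw [map_one, mul_one]⟩
  have hπB : ∀ σ ∈ H, S.π σ ∈ S.sub T H := fun σ hσ =>
    ⟨1, fun _ => T.one_mem, σ, hσ, by rw [map_one, one_mul]⟩
  have hπK : ∀ σ ∈ H, S.π σ ∈ S.sub T H ⊓ Δ.ker := fun σ hσ =>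
    ⟨hπB σ hσ, MonoidHom.mem_ker.mpr (hπ σ)⟩
  have hsingle : ∀ (j : Ω) (s : D), s ∈ T → ∀ i, (Pi.mulSingle j s : Ω → D) i ∈ T := by
    intro j s hs i
    by_cases h : i = j
    · rw [h, Pi.mulSingle_eq_same]
      exact hs
    · rw [Pi.mulSingle_eq_of_ne h]
      exact T.one_mem
  -- `K` is normalized by `B`
  have hnorm : ∀ b ∈ S.sub T H, ∀ y ∈ S.sub T H ⊓ Δ.ker, b * y * b⁻¹ ∈ S.sub T H ⊓ Δ.ker := by
    intro b hb y hy
    refine ⟨(S.sub T H).mul_mem ((S.sub T H).mul_mem hb hy.1) ((S.sub T H).inv_mem hb), ?_⟩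
    have hy2 : Δ y = 1 := MonoidHom.mem_ker.mp hy.2
    show b * y * b⁻¹ ∈ Δ.ker
    rw [MonoidHom.mem_ker, map_mul, map_mul, map_inv, hy2, mul_one, mul_inv_cancel]
  -- (i) the permutation part
  have hπSq : ∀ σ ∈ H, S.π σ ∈ sqSub (S.sub T H ⊓ Δ.ker) := by
    intro σ hσ
    refine ⟨hπK σ hσ, ?_⟩
    have hle : H.map S.π ≤ S.sub T H ⊓ Δ.ker := by
      rintro _ ⟨σ', hσ', rfl⟩
      exact hπK σ' hσ'
    have h2 : S.π (σ ^ 2) ∈ (⁅H, H⁆).map S.π := Subgroup.mem_map_of_mem _ (hH σ hσ)
    rw [Subgroup.map_commutator] at h2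
    rw [← map_pow]
    exact Subgroup.commutator_mono hle hle h2
  -- (ii) the base part with all coordinates in `T ⊓ ker δ`
  have hιSq : ∀ g : Ω → D, (∀ i, g i ∈ T ⊓ δ.ker) → S.ι g ∈ sqSub (S.sub T H ⊓ Δ.ker) := by
    intro g hg
    have hle : (Subgroup.pi Set.univ (fun _ : Ω => T ⊓ δ.ker)).map S.ι
        ≤ S.sub T H ⊓ Δ.ker := by
      rintro _ ⟨g', hg', rfl⟩
      refine ⟨hιB g' (fun i => (hg' i (Set.mem_univ i)).1), ?_⟩
      show S.ι g' ∈ Δ.ker
      rw [MonoidHom.mem_ker, hι]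
      exact Finset.prod_eq_one (fun i _ => MonoidHom.mem_ker.mp (hg' i (Set.mem_univ i)).2)
    have hgpi : g ∈ Subgroup.pi Set.univ (fun _ : Ω => T ⊓ δ.ker) := fun i _ => hg i
    refine ⟨hle (Subgroup.mem_map_of_mem _ hgpi), ?_⟩
    have hg2 : g ^ 2 ∈ ⁅Subgroup.pi Set.univ (fun _ : Ω => T ⊓ δ.ker),
        Subgroup.pi Set.univ (fun _ : Ω => T ⊓ δ.ker)⁆ := by
      rw [Subgroup.commutator_pi_pi_of_finite]
      intro i _
      exact hT (g i) (hg i)
    have h2 : S.ι (g ^ 2) ∈ (⁅Subgroup.pi Set.univ (fun _ : Ω => T ⊓ δ.ker),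
        Subgroup.pi Set.univ (fun _ : Ω => T ⊓ δ.ker)⁆).map S.ι :=
      Subgroup.mem_map_of_mem _ hg2
    rw [Subgroup.map_commutator] at h2
    rw [← map_pow]
    exact Subgroup.commutator_mono hle hle h2
  -- (iii) the base part with product of `δ` equal to one
  have hmain : ∀ g : Ω → D, (∀ i, g i ∈ T) → Δ (S.ι g) = 1 →
      S.ι g ∈ sqSub (S.sub T H ⊓ Δ.ker) := by
    rcases hcase with ⟨u, huT, hu2, hu⟩ | htrans
    · intro g hg hΔ
      let w : Ω → D := fun i => if δ (g i) = 1 then 1 else u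
      have hw : ∀ i, w i ∈ T := by
        intro i
        show (if δ (g i) = 1 then 1 else u) ∈ T
        split_ifs
        · exact T.one_mem
        · exact huT
      have hg1 : ∀ i, (g * w⁻¹) i ∈ T ⊓ δ.ker := by
        intro i
        refine ⟨T.mul_mem (hg i) (T.inv_mem (hw i)), ?_⟩
        show g i * (w i)⁻¹ ∈ δ.ker
        rw [MonoidHom.mem_ker, map_mul, map_inv]
        show δ (g i) * (δ (if δ (g i) = 1 then 1 else u))⁻¹ = 1
        split_ifs with h
        · rw [h, map_one, inv_one, mul_one]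
        · rcases hu (g i) (hg i) with h' | h'
          · exact absurd h' h
          · rw [h', mul_inv_cancel]
      have h1 := hιSq (g * w⁻¹) hg1
      have h4 : S.ι g = S.ι (g * w⁻¹) * S.ι w := by
        rw [← map_mul, inv_mul_cancel_right]
      have hwK : S.ι w ∈ S.sub T H ⊓ Δ.ker := by
        refine ⟨hιB w hw, ?_⟩
        show S.ι w ∈ Δ.ker
        rw [MonoidHom.mem_ker]
        have h3 : Δ (S.ι (g * w⁻¹)) = 1 := MonoidHom.mem_ker.mp h1.1.2
        rw [h4, map_mul, h3, one_mul] at hΔ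
        exact hΔ
      have hw2 : S.ι w ∈ sqSub (S.sub T H ⊓ Δ.ker) := by
        refine ⟨hwK, ?_⟩
        have hww : w ^ 2 = 1 := by
          funext i
          show (if δ (g i) = 1 then 1 else u) ^ 2 = 1
          split_ifs
          · exact one_pow 2
          · exact hu2
        rw [← map_pow, hww, map_one]
        exact Subgroup.one_mem _
      rw [h4]
      exact (sqSub (S.sub T H ⊓ Δ.ker)).mul_mem h1 hw2
    · rcases isEmpty_or_nonempty Ω with hΩ | ⟨⟨i0⟩⟩
      · intro g hg hΔ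
        have hg1 : g = 1 := Subsingleton.elim _ _
        rw [hg1, map_one]
        exact (sqSub (S.sub T H ⊓ Δ.ker)).one_mem
      · have hc : ∀ (a : Ω) (s : D), s ∈ T →
            S.ι (Pi.mulSingle a s * Pi.mulSingle i0 s⁻¹) ∈ sqSub (S.sub T H ⊓ Δ.ker) := by
          intro a s hs
          obtain ⟨σ, hσ, hσa⟩ := htrans i0 a
          have hy : S.ι (Pi.mulSingle i0 s) ∈ S.sub T H := hιB _ (hsingle i0 s hs)
          have h1 : S.π σ * S.ι (Pi.mulSingle i0 s) = S.ι (Pi.mulSingle a s) * S.π σ := by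
            rw [S.star]
            congr 2
            funext i
            by_cases h : i = a
            · have h5 : σ⁻¹ a = i0 := by
                rw [← hσa]
                simp
              rw [h, Pi.mulSingle_eq_same, h5, Pi.mulSingle_eq_same]
            · have h5 : σ⁻¹ i ≠ i0 := by
                intro h'
                apply h
                rw [← hσa, ← h']
                simp
              rw [Pi.mulSingle_eq_of_ne h, Pi.mulSingle_eq_of_ne h5]
          have h2 : S.ι (Pi.mulSingle a s * Pi.mulSingle i0 s⁻¹)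
              = S.π σ * (S.ι (Pi.mulSingle i0 s) * (S.π σ)⁻¹ * (S.ι (Pi.mulSingle i0 s))⁻¹) := by
            rw [map_mul, Pi.mulSingle_inv, map_inv, eq_mul_inv_of_mul_eq h1.symm]
            simp only [mul_assoc]
          rw [h2]
          exact (sqSub (S.sub T H ⊓ Δ.ker)).mul_mem (hπSq σ hσ)
            (conj_mem_sqSub (hnorm _ hy) ((sqSub (S.sub T H ⊓ Δ.ker)).inv_mem (hπSq σ hσ)))
        have hind : ∀ (E : Finset Ω) (g : Ω → D), (∀ i, g i ∈ T) →
            (∀ i, i ∉ E → i ≠ i0 → g i = 1) → Δ (S.ι g) = 1 →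
            S.ι g ∈ sqSub (S.sub T H ⊓ Δ.ker) := by
          intro E
          induction E using Finset.induction_on with
          | empty =>
            intro g hg hE hΔ
            apply hιSq
            intro i
            refine ⟨hg i, ?_⟩
            show g i ∈ δ.ker
            rw [MonoidHom.mem_ker]
            by_cases h : i = i0
            · rw [hι, Fintype.prod_eq_single i0
                (fun j hj => by rw [hE j (Finset.notMem_empty j) hj, map_one])] at hΔ
              rw [h]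
              exact hΔ
            · rw [hE i (Finset.notMem_empty i) h, map_one]
          | insert a E' ha ih =>
            intro g hg hE hΔ
            by_cases ha0 : a = i0
            · apply ih g hg _ hΔ
              intro i hi hi0
              apply hE i _ hi0
              rw [Finset.mem_insert, not_or]
              exact ⟨fun h => hi0 (h.trans ha0), hi⟩
            · have hcS := hc a (g a) (hg a)
              have hcT : ∀ i, (Pi.mulSingle a (g a) * Pi.mulSingle i0 (g a)⁻¹ : Ω → D) i ∈ T :=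
                fun i => T.mul_mem (hsingle a (g a) (hg a) i)
                  (hsingle i0 (g a)⁻¹ (T.inv_mem (hg a)) i)
              have hg' : S.ι ((Pi.mulSingle a (g a) * Pi.mulSingle i0 (g a)⁻¹)⁻¹ * g)
                  ∈ sqSub (S.sub T H ⊓ Δ.ker) := by
                apply ih
                · intro i
                  exact T.mul_mem (T.inv_mem (hcT i)) (hg i)
                · intro i hi hi0
                  show ((Pi.mulSingle a (g a) : Ω → D) i
                    * (Pi.mulSingle i0 (g a)⁻¹ : Ω → D) i)⁻¹ * g i = 1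
                  rw [Pi.mulSingle_eq_of_ne hi0]
                  by_cases hia : i = a
                  · rw [hia, Pi.mulSingle_eq_same, mul_one, inv_mul_cancel]
                  · rw [Pi.mulSingle_eq_of_ne hia, mul_one, inv_one, one_mul]
                    apply hE i _ hi0
                    rw [Finset.mem_insert, not_or]
                    exact ⟨hia, hi⟩
                · rw [map_mul, map_inv, map_mul, map_inv, hΔ, mul_one, inv_eq_one]
                  exact MonoidHom.mem_ker.mp hcS.1.2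
              have h6 : S.ι g = S.ι (Pi.mulSingle a (g a) * Pi.mulSingle i0 (g a)⁻¹)
                  * S.ι ((Pi.mulSingle a (g a) * Pi.mulSingle i0 (g a)⁻¹)⁻¹ * g) := by
                rw [← map_mul, mul_inv_cancel_left]
              rw [h6]
              exact (sqSub (S.sub T H ⊓ Δ.ker)).mul_mem hcS hg'
        intro g hg hΔ
        exact hind Finset.univ g hg (fun i hi => absurd (Finset.mem_univ i) hi) hΔ
  -- conclusion
  rintro x ⟨⟨g, hg, σ, hσ, rfl⟩, hxΔ⟩
  have hΔ : Δ (S.ι g) = 1 := by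
    have h7 := MonoidHom.mem_ker.mp hxΔ
    rwa [map_mul, hπ, mul_one] at h7
  exact ((sqSub (S.sub T H ⊓ Δ.ker)).mul_mem (hmain g hg hΔ) (hπSq σ hσ)).2

end main

end Cfsg.Agent.Lib.Helper24.MonDet
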