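import Mathlib
import Cfsg.Agent.Lib.Helper25.BrauerPair15
import Cfsg.Agent.Lib.Helper8.Extended
import Cfsg.Agent.Lib.Helper8.BlockNil
import Cfsg.Agent.Lib.Helper8.InducedBlock
import Cfsg.Agent.S4657

set_option autoImplicit false

/-!
Brauer pairs of a block of a subgroup `H` containing the centralizer of a defect group, read as
Brauer pairs of the induced block of the whole group.
-/

namespace Cfsg.Agent.Lib.Helper24

open Cfsg Cfsg.Agent.Lib.Helper2 Cfsg.Agent.Lib.Helper25 Cfsg.Agent.Lib.Helper8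

section pairtransfer

variable {p : ℕ} {M : Ideal AlgInt}

/-- every block has a Brauer pair on the trivial subgroup -/
theorem exists_pair_bot [Fact p.Prime] (hM : IsPModular p M) {K : Type*} [Group K] [Fintype K]
    (b : Set (IrrCharacter K)) (hb : IsPBlock M b) :
    ∃ f : Set (IrrCharacter (Subgroup.centralizer ((⊥ : Subgroup K) : Set K))),
      IsBrauerPairOf p M b ⊥ f := by
  classical
  haveI hpr := isPrime_of_isPModular hM
  have : Fintype (IrrCharacter K) := Fintype.ofFinite _
  have hmem : ∀ k : K, k ∈ Subgroup.centralizer ((⊥ : Subgroup K) : Set K) := by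
    intro k
    rw [Subgroup.mem_centralizer_iff]
    intro h hh
    have : h = 1 := Subgroup.mem_bot.mp hh
    rw [this, one_mul, mul_one]
  let φ : K ≃* ↥(Subgroup.centralizer ((⊥ : Subgroup K) : Set K)) :=
    { toFun := fun k => ⟨k, hmem k⟩
      invFun := fun c => (c : K)
      left_inv := fun k => rfl
      right_inv := fun c => rfl
      map_mul' := fun a b => rfl }
  have : Fintype ↥(Subgroup.centralizer ((⊥ : Subgroup K) : Set K)) := Fintype.ofFinite _
  refine ⟨isoIrr φ '' b, ⟨IsPGroup.of_bot, isPBlock_image_isoIrr φ hb⟩, hb, ?_⟩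
  rintro ξ ⟨ξ', hξ', rfl⟩
  have h1 : brauerOmega (⊥ : Subgroup K) (blockCoeff b)
      (isoIrr φ ξ' : ↥(Subgroup.centralizer ((⊥ : Subgroup K) : Set K)) → ℂ)
      = omegaFun (ξ' : K → ℂ) (blockCoeff b) := by
    rw [brauerOmega_eq']
    unfold omegaFun
    rw [isoIrr_apply, map_one]
    congr 1
    rw [← Equiv.sum_comp φ.toEquiv]
    apply Finset.sum_congr rfl
    intro k _
    rw [isoIrr_apply]
    rfl
  rw [h1, Helper25.omegaFun_blockCoeff, if_pos hξ', sub_self]
  exact memLocalIdeal_zero M

/-- a block has a maximal Brauer pair on each of its defect groups -/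
theorem exists_maximal_pair_at [Fact p.Prime] (hM : IsPModular p M) {K : Type*} [Group K]
    [Fintype K] (b : Set (IrrCharacter K)) (hb : IsPBlock M b) (D : Subgroup K)
    (hD : IsDefectGroup p M b D) :
    ∃ e : Set (IrrCharacter (Subgroup.centralizer (D : Set K))),
      IsMaximalBrauerPair p M b D e := by
  classical
  obtain ⟨f₀, hf₀⟩ := exists_pair_bot hM b hb
  obtain ⟨P', e', hmax, -⟩ := exists_maximal_above hM _ ⊥ f₀ hf₀ rfl
  have hP' := isDefectGroup_of_isMaximalBrauerPair hM hmax
  obtain ⟨x, hx⟩ := defectGroup_conj hM hb hD hP'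
  subst hx
  exact ⟨conjBlock P' x e', isMaximal_of_defectGroup hM (isBrauerPairOf_conj hmax.1 x) hD⟩

/-- the block at the top of a maximal Brauer pair `(P, e)` has defect groups of the order of
the centre of `P` -/
theorem card_inf_centralizer_of_maximal [Fact p.Prime] (hM : IsPModular p M) {K : Type*}
    [Group K] [Fintype K] {b : Set (IrrCharacter K)} {P : Subgroup K}
    {e : Set (IrrCharacter (Subgroup.centralizer (P : Set K)))}
    (hmax : IsMaximalBrauerPair p M b P e) :
    Nat.card ↥(P ⊓ Subgroup.centralizer (P : Set K)) = p ^ blockDefect p e := by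
  classical
  have he : IsPBlock M e := hmax.1.1.2
  obtain ⟨-, x, hle, hdef⟩ :=
    centralizerIn_defectGroup hM hmax le_rfl he Relation.ReflTransGen.refl
  have : Fintype ↥(Subgroup.centralizer
    ((P.map (MulAut.conj x).toMonoidHom : Subgroup K) : Set K)) := Fintype.ofFinite _
  have hc := card_of_isDefectGroup hM _ (isPBlock_conjBlock P x he) _ hdef
  rw [card_subgroupOf_eq _ _ inf_le_right, blockDefect_conjBlock] at hc
  have hPx : P.map (MulAut.conj x).toMonoidHom = P := by
    apply Subgroup.eq_of_le_of_card_ge (subpairLE_le hle)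
    rw [Subgroup.card_map_of_injective (MulAut.conj x).injective]
  rw [← hc, hPx]

/-- central characters of a block of a subgroup and of the block it induces, at a class
function of the whole group -/
theorem omegaFun_restrict_of_induced [Fact p.Prime] (hM : IsPModular p M) {G : Type*} [Group G]
    [Fintype G] (H : Subgroup G) [Fintype H] {b : Set (IrrCharacter H)}
    {B : Set (IrrCharacter G)} (hind : IsInducedBlock M H b B) (ψ : IrrCharacter H) (hψ : ψ ∈ b)
    (χ : IrrCharacter G) (hχ : χ ∈ B) (r : G → ℂ) (hr : IsClassFunction G r)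
    (hrR : ∀ g, MemLocalRing M (r g)) :
    MemLocalIdeal M (omegaFun (ψ : H → ℂ) (fun h : H => r h) - omegaFun (χ : G → ℂ) r) := by
  classical
  haveI hpr := isPrime_of_isPModular hM
  have hψ1 : (ψ : H → ℂ) 1 ≠ 0 := irr_one_ne_zero ψ.2
  rw [← omegaFun_indFun H (ψ : H → ℂ) hψ1 r hr,
    omegaFun_eq_sum_classes _ (indFun_isClassFunction H _) _ hr,
    omegaFun_eq_sum_classes _ (isClassFunction_of_isIrrCharacter χ.2) _ hr,
    ← Finset.sum_sub_distrib]
  apply memLocalIdeal_sum
  intro c _
  rw [← mul_sub, ← inducedCentralChar_eq H _ hψ1]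
  exact MemLocalIdeal.mul_left M (hrR _) (hind.2.2 ψ hψ χ hχ _)

/-- a Brauer pair of a block `b` of `H`, on a subgroup whose centralizer lies in `H`, is a
Brauer pair of the block induced by `b` -/
theorem isBrauerPairOf_of_induced [Fact p.Prime] (hM : IsPModular p M) {G : Type*} [Group G]
    [Fintype G] (H : Subgroup G) [Fintype H] (D₀ : Subgroup H) (P : Subgroup G)
    (h1 : Subgroup.centralizer (P : Set G) ≤ H)
    (h2 : ∀ h : H, h ∈ Subgroup.centralizer (D₀ : Set H)
      ↔ (h : G) ∈ Subgroup.centralizer (P : Set G))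
    (hPp : IsPGroup p P) {b : Set (IrrCharacter H)}
    {e' : Set (IrrCharacter (Subgroup.centralizer (D₀ : Set H)))}
    (hpair : IsBrauerPairOf p M b D₀ e') {B : Set (IrrCharacter G)}
    (hind : IsInducedBlock M H b B) :
    IsBrauerPairOf p M B P (isoIrr (subCentIso H D₀ P h1 h2) '' e') := by
  classical
  haveI hpr := isPrime_of_isPModular hM
  have : Fintype (IrrCharacter G) := Fintype.ofFinite _
  have hB := hind.2.1
  obtain ⟨ψ, hψ⟩ := isPBlock_nonempty hM hind.1
  obtain ⟨χ, hχ⟩ := isPBlock_nonempty hM hB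
  refine ⟨⟨hPp, isPBlock_image_isoIrr _ hpair.1.2⟩, hB, ?_⟩
  rintro ξ ⟨ξ', hξ', rfl⟩
  rw [brauerOmega_subgroup' H D₀ P h1 h2 (blockCoeff B) (fun h : H => blockCoeff B (h : G))
    (fun _ => rfl) ξ']
  have hcl : IsClassFunction G (blockCoeff B) := blockCoeff_isClassFunction B
  have hR : ∀ g, MemLocalRing M (blockCoeff B g) :=
    blockCoeff_memLocalRing hM B (blockClosed_of_isPBlock M hB)
  have a1 := brauerPairOf_omega hM hpair ξ' hξ' ψ hψ (fun h : H => blockCoeff B (h : G))
    (restrict_isClassFunction H hcl) (fun h => hR _)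
  have a2 := omegaFun_restrict_of_induced hM H hind ψ hψ χ hχ (blockCoeff B) hcl hR
  rw [Helper25.omegaFun_blockCoeff, if_pos hχ] at a2
  have := MemLocalIdeal.add M a1 a2
  rwa [sub_add_sub_cancel] at this

/-- conversely, a block of the whole group with the transported pair is induced by `b` -/
theorem isInducedBlock_of_pair [Fact p.Prime] (hM : IsPModular p M) {G : Type*} [Group G]
    [Fintype G] (H : Subgroup G) [Fintype H] (D₀ : Subgroup H) (P : Subgroup G)
    (h1 : Subgroup.centralizer (P : Set G) ≤ H)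
    (h2 : ∀ h : H, h ∈ Subgroup.centralizer (D₀ : Set H)
      ↔ (h : G) ∈ Subgroup.centralizer (P : Set G))
    {b : Set (IrrCharacter H)}
    {e' : Set (IrrCharacter (Subgroup.centralizer (D₀ : Set H)))}
    (hpair : IsBrauerPairOf p M b D₀ e') {B : Set (IrrCharacter G)}
    (hpairG : IsBrauerPairOf p M B P (isoIrr (subCentIso H D₀ P h1 h2) '' e')) :
    IsInducedBlock M H b B := by
  classical
  haveI hpr := isPrime_of_isPModular hM
  obtain ⟨ξ', hξ'⟩ := isPBlock_nonempty hM hpair.1.2
  refine ⟨hpair.2.1, hpairG.2.1, ?_⟩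
  intro ψ hψ χ hχ g
  have hcl := cf_classSum_isClassFunction (G := G) g
  have hR : ∀ x, MemLocalRing M (cf (classSum ℂ g) x) := by
    intro x
    rw [cf_classSum]
    show MemLocalRing M (if IsConj g x then 1 else 0)
    split_ifs
    · exact memLocalRing_one M
    · exact memLocalRing_zero M
  have a1 := brauerPairOf_omega hM hpair ξ' hξ' ψ hψ (fun h : H => cf (classSum ℂ g) (h : G))
    (restrict_isClassFunction H hcl) (fun h => hR _)
  have a2 := brauerPairOf_omega hM hpairG (isoIrr (subCentIso H D₀ P h1 h2) ξ') ⟨ξ', hξ', rfl⟩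
    χ hχ (cf (classSum ℂ g)) hcl hR
  rw [brauerOmega_subgroup' H D₀ P h1 h2 (cf (classSum ℂ g))
    (fun h : H => cf (classSum ℂ g) (h : G)) (fun _ => rfl) ξ', omegaFun_classSum] at a2
  have e : inducedCentralChar H (ψ : H → ℂ) g
      = omegaFun (ψ : H → ℂ) (fun h : H => cf (classSum ℂ g) (h : G)) := by
    rw [inducedCentralChar_eq_omegaFun, cf_classSum]
  rw [e]
  have := MemLocalIdeal.sub M a2 a1
  rwa [sub_sub_sub_cancel_left] at this

/-- **a block of a subgroup containing the centralizer of its defect group**: the induced block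
is defined, and every induced block has a defect group `D` containing the given defect group
`D₀`, with `C_D(D₀) ≤ D₀` -/
theorem induced_centric_main [Fact p.Prime] (hM : IsPModular p M) {G : Type*} [Group G]
    [Fintype G] (H : Subgroup G) [Fintype H] (b : Set (IrrCharacter H)) (hb : IsPBlock M b)
    (D₀ : Subgroup H) (hD₀ : IsDefectGroup p M b D₀)
    (hC : Subgroup.centralizer ((D₀.map H.subtype : Subgroup G) : Set G) ≤ H) :
    InducedBlockDefined M H b ∧ ∀ B : Set (IrrCharacter G), IsInducedBlock M H b B →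
      ∃ D : Subgroup G, IsDefectGroup p M B D ∧ D₀.map H.subtype ≤ D ∧
        D ⊓ Subgroup.centralizer ((D₀.map H.subtype : Subgroup G) : Set G)
          ≤ D₀.map H.subtype := by
  classical
  haveI hpr := isPrime_of_isPModular hM
  have hPp : IsPGroup p (D₀.map H.subtype) := (isPGroup_of_isDefectGroup hD₀).map _
  have h2 : ∀ h : H, h ∈ Subgroup.centralizer (D₀ : Set H)
      ↔ (h : G) ∈ Subgroup.centralizer ((D₀.map H.subtype : Subgroup G) : Set G) := by
    intro h
    rw [Subgroup.mem_centralizer_iff, Subgroup.mem_centralizer_iff]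
    constructor
    · intro hh x hx
      obtain ⟨d, hd, rfl⟩ := Subgroup.mem_map.mp hx
      exact congrArg Subtype.val (hh d hd)
    · intro hh d hd
      apply Subtype.ext
      exact hh (d : G) (Subgroup.mem_map_of_mem _ hd)
  obtain ⟨e', hmaxH⟩ := exists_maximal_pair_at hM b hb D₀ hD₀
  have hcardH := card_inf_centralizer_of_maximal hM hmaxH
  have hpairH := hmaxH.1
  have hfblock : IsPBlock M (isoIrr (subCentIso H D₀ (D₀.map H.subtype) hC h2) '' e') :=
    isPBlock_image_isoIrr _ hpairH.1.2
  constructor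
  · obtain ⟨B₀, hB₀, -⟩ := Cfsg.Agent.S4657.result p M hM (D₀.map H.subtype) _ ⟨hPp, hfblock⟩
    exact ⟨B₀, isInducedBlock_of_pair hM H D₀ _ hC h2 hpairH hB₀⟩
  · intro B hind
    have hpairG := isBrauerPairOf_of_induced hM H D₀ _ hC h2 hPp hpairH hind
    obtain ⟨P₁, e₁, hmax₁, hle⟩ := exists_maximal_above hM _ _ _ hpairG rfl
    have hPP₁ : D₀.map H.subtype ≤ P₁ := subpairLE_le hle
    have hD₁ := isDefectGroup_of_isMaximalBrauerPair hM hmax₁
    obtain ⟨⟨Df, hDf, hDfle⟩, -⟩ := centralizerIn_defectGroup hM hmax₁ hPP₁ hfblock hle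
    have : Fintype ↥(Subgroup.centralizer ((D₀.map H.subtype : Subgroup G) : Set G)) :=
      Fintype.ofFinite _
    have hcDf := card_of_isDefectGroup hM _ hfblock Df hDf
    rw [blockDefect_image_isoIrr, ← hcardH] at hcDf
    have hmap : (D₀ ⊓ Subgroup.centralizer (D₀ : Set H)).map H.subtype
        = D₀.map H.subtype ⊓ Subgroup.centralizer ((D₀.map H.subtype : Subgroup G) : Set G) := by
      ext x
      constructor
      · rintro ⟨h, ⟨hh1, hh2⟩, rfl⟩
        exact ⟨Subgroup.mem_map_of_mem _ hh1, (h2 h).mp hh2⟩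
      · rintro ⟨hx1, hx2⟩
        obtain ⟨d, hd, rfl⟩ := Subgroup.mem_map.mp hx1
        exact ⟨d, ⟨hd, (h2 d).mpr hx2⟩, rfl⟩
    have hcZ : Nat.card ↥(D₀ ⊓ Subgroup.centralizer (D₀ : Set H))
        = Nat.card ↥(D₀.map H.subtype
          ⊓ Subgroup.centralizer ((D₀.map H.subtype : Subgroup G) : Set G)) := by
      rw [← hmap, Subgroup.card_map_of_injective (Subgroup.subtype_injective H)]
    have hle2 : D₀.map H.subtype
          ⊓ Subgroup.centralizer ((D₀.map H.subtype : Subgroup G) : Set G)
        ≤ P₁ ⊓ Subgroup.centralizer ((D₀.map H.subtype : Subgroup G) : Set G) :=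
      inf_le_inf_right _ hPP₁
    have hcard2 : Nat.card ↥(P₁
          ⊓ Subgroup.centralizer ((D₀.map H.subtype : Subgroup G) : Set G))
        ≤ Nat.card ↥(D₀.map H.subtype
          ⊓ Subgroup.centralizer ((D₀.map H.subtype : Subgroup G) : Set G)) := by
      rw [← hcZ, ← hcDf, ← card_subgroupOf_eq _ _ (inf_le_right : P₁
        ⊓ Subgroup.centralizer ((D₀.map H.subtype : Subgroup G) : Set G) ≤ _)]
      exact Subgroup.card_le_of_le hDfle
    have heq := Subgroup.eq_of_le_of_card_ge hle2 hcard2
    refine ⟨P₁, hD₁, hPP₁, ?_⟩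
    rw [← heq]
    exact inf_le_left

end pairtransfer

end Cfsg.Agent.Lib.Helper24
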