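import Mathlib
import Cfsg.Prelude.Def_Solvable
import Cfsg.Agent.Lib.Lead.FrobeniusMore
import Cfsg.Agent.Lib.Helper18.OddCore
import Cfsg.Agent.Lib.Helper24.FrobComplement

set_option autoImplicit false

/-!
Frobenius groups whose complement contains a quaternion group of order 8: the Frobenius kernel is
abelian of odd square order.  Main results:

* `sq_card_of_action`: a finite group of odd order with endomorphisms `i`, `j` satisfying
  `i² = j² = inversion`, `i j = inversion ∘ j i` has square order.
* `frob_kernel_sq`: Frobenius complement containing `i`, `j` with the quaternion relations.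
* `quat_hom`: homomorphisms out of `QuaternionGroup n` with prescribed images of the generators.
* `exists_frobenius_of_fpf_card`: fixed-point-free action gives a Frobenius group of known order.
-/

namespace Cfsg.Agent.Lib.Helper24

universe u

theorem sq_elem {T : Type*} [AddCommGroup T] [Finite T] (p : ℕ) [hp : Fact p.Prime]
    (hT : ∀ v : T, p • v = 0) (hodd : Odd (Nat.card T)) (i j : T →+ T) (hi : ∀ v, i (i v) = -v) (hj : ∀ v, j (j v) = -v)
    (hij : ∀ v, i (j v) = -(j (i v))) : IsSquare (Nat.card T) := by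
  obtain ⟨a, b, hab⟩ := ZMod.sq_add_sq p (-1 : ZMod p)
  -- integer lifts
  set α : ℤ := (a.val : ℤ) with hα
  set β : ℤ := (b.val : ℤ) with hβ
  have hdvd : (p : ℤ) ∣ α ^ 2 + β ^ 2 + 1 := by
    rw [← ZMod.intCast_zmod_eq_zero_iff_dvd]
    have ha : ((α : ℤ) : ZMod p) = a := by rw [hα]; simp
    have hb : ((β : ℤ) : ZMod p) = b := by rw [hβ]; simp
    push_cast
    rw [ha, hb, hab]; ring
  have hji : ∀ v, j (i v) = -(i (j v)) := fun v => by rw [hij, neg_neg]
  let x : T →+ T := α • i + β • j
  have hx : ∀ v, x v = α • i v + β • j v := fun v => rfl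
  have hpz : ∀ v : T, (p : ℤ) • v = 0 := fun v => by rw [natCast_zsmul]; exact hT v
  have hxx : ∀ v, x (x v) = v := by
    intro v
    obtain ⟨c, hc⟩ := hdvd
    have h0 : (α ^ 2 + β ^ 2 + 1) • v = 0 := by
      rw [hc, mul_comm, mul_smul, hpz, smul_zero]
    have h1 : x (x v) = -((α ^ 2 + β ^ 2) • v) := by
      simp only [hx, map_add, map_zsmul, hi, hj, hji]
      module
    rw [h1]
    have h2 : (α ^ 2 + β ^ 2 + 1) • v = (α ^ 2 + β ^ 2) • v + v := by module
    rw [h2] at h0
    exact (eq_neg_of_add_eq_zero_right h0).symm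
  let D : T →+ T := x - AddMonoidHom.id T
  let S : T →+ T := x + AddMonoidHom.id T
  have hD : ∀ v, D v = x v - v := fun v => rfl
  have hS : ∀ v, S v = x v + v := fun v => rfl
  have h1 : Nat.card D.ker * Nat.card D.range = Nat.card T := by
    rw [← AddSubgroup.index_ker]
    exact AddSubgroup.card_mul_index D.ker
  have h2 : D.range = S.ker := by
    ext w
    rw [AddMonoidHom.mem_range, AddMonoidHom.mem_ker]
    constructor
    · rintro ⟨v, rfl⟩
      rw [hS, hD, map_sub, hxx]
      abel
    · intro hw
      rw [hS] at hw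
      have hxw : x w = -w := eq_neg_of_add_eq_zero_left hw
      obtain ⟨m, hm⟩ := hodd
      refine ⟨m • w, ?_⟩
      rw [hD, map_nsmul, hxw]
      have h3 : (Nat.card T) • w = 0 := card_nsmul_eq_zero' 
      rw [hm] at h3
      have h4 : (2 * m + 1) • w = m • w + m • w + w := by module
      rw [h4] at h3
      have h5 : m • -w - m • w = -(m • w + m • w) := by module
      have h6 : w = -(m • w + m • w) := eq_neg_of_add_eq_zero_right h3
      rw [h5]
      exact h6.symm
  -- the map i ∘ j swaps the two eigenspaces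
  have hk2 : ∀ v, i (j (i (j v))) = -v := by
    intro v
    rw [hji, hj, map_neg, hi, neg_neg]
  have hkinj : Function.Injective (fun v => i (j v)) := by
    intro v w hvw
    have h3 : i (j (i (j v))) = i (j (i (j w))) := by
      have := congrArg (fun u => i (j u)) hvw
      exact this
    rw [hk2, hk2] at h3
    exact neg_injective h3
  have hanti : ∀ v, x (i (j v)) = -(i (j (x v))) := by
    intro v
    simp only [hx, map_add, map_zsmul, hi, hj, hji, map_neg, neg_neg]
    module
  have h3 : Nat.card D.ker ≤ Nat.card S.ker := by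
    refine Nat.card_le_card_of_injective (fun v => (⟨i (j v.1), ?_⟩ : S.ker)) ?_
    · have hv : x v.1 = v.1 := by
        have := v.2
        rw [AddMonoidHom.mem_ker, hD] at this
        exact sub_eq_zero.mp this
      rw [AddMonoidHom.mem_ker, hS, hanti, hv]
      abel
    · intro v w hvw
      exact Subtype.ext (hkinj (congrArg Subtype.val hvw))
  have h4 : Nat.card S.ker ≤ Nat.card D.ker := by
    refine Nat.card_le_card_of_injective (fun v => (⟨i (j v.1), ?_⟩ : D.ker)) ?_
    · have hv : x v.1 = -v.1 := by
        have := v.2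
        rw [AddMonoidHom.mem_ker, hS] at this
        exact eq_neg_of_add_eq_zero_left this
      rw [AddMonoidHom.mem_ker, hD, hanti, hv, map_neg, map_neg]
      abel
    · intro v w hvw
      exact Subtype.ext (hkinj (congrArg Subtype.val hvw))
  refine ⟨Nat.card D.ker, ?_⟩
  rw [← h1, h2, le_antisymm h4 h3]

theorem sq_card_aux : ∀ (n : ℕ) (A : Type u) [AddCommGroup A] [Finite A] (i j : A →+ A),
    (∀ v, i (i v) = -v) → (∀ v, j (j v) = -v) → (∀ v, i (j v) = -(j (i v))) → Odd (Nat.card A) →
    Nat.card A = n → IsSquare n := by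
  intro n
  induction n using Nat.strong_induction_on with
  | _ n ih =>
    intro A _ _ i j hi hj hij hodd hn
    by_cases h1 : n = 1
    · exact ⟨1, by rw [h1]⟩
    have hp : (n.minFac).Prime := Nat.minFac_prime h1
    have hFp : Fact (n.minFac).Prime := ⟨hp⟩
    have hpn : n.minFac ∣ Nat.card A := hn ▸ Nat.minFac_dvd n
    let f : A →+ A := nsmulAddMonoidHom n.minFac
    have hf : ∀ v, f v = n.minFac • v := fun v => rfl
    have hcard : Nat.card f.ker * Nat.card f.range = Nat.card A := by
      rw [← AddSubgroup.index_ker]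
      exact AddSubgroup.card_mul_index f.ker
    obtain ⟨v0, hv0⟩ := exists_prime_addOrderOf_dvd_card' (G := A) n.minFac hpn
    have hker1 : 1 < Nat.card f.ker := by
      have hv0k : v0 ∈ f.ker := by
        rw [AddMonoidHom.mem_ker, hf, ← hv0]
        exact addOrderOf_nsmul_eq_zero v0
      have hv00 : v0 ≠ 0 := by
        rintro rfl
        rw [addOrderOf_zero] at hv0
        exact hp.one_lt.ne hv0
      exact Finite.one_lt_card_iff_nontrivial.mpr
        ⟨⟨v0, hv0k⟩, 0, fun h => hv00 (congrArg Subtype.val h)⟩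
    have hiK : ∀ v ∈ f.ker, i v ∈ f.ker := by
      intro v hv
      rw [AddMonoidHom.mem_ker, hf] at hv ⊢
      rw [← map_nsmul, hv, map_zero]
    have hjK : ∀ v ∈ f.ker, j v ∈ f.ker := by
      intro v hv
      rw [AddMonoidHom.mem_ker, hf] at hv ⊢
      rw [← map_nsmul, hv, map_zero]
    let iK : f.ker →+ f.ker := (i.comp f.ker.subtype).codRestrict f.ker (fun v => hiK v.1 v.2)
    let jK : f.ker →+ f.ker := (j.comp f.ker.subtype).codRestrict f.ker (fun v => hjK v.1 v.2)
    have hsqK : IsSquare (Nat.card f.ker) := by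
      refine sq_elem n.minFac ?_ (Odd.of_dvd_nat hodd (hcard ▸ dvd_mul_right _ _)) iK jK ?_ ?_ ?_
      · intro v
        apply Subtype.ext
        have := v.2
        rw [AddMonoidHom.mem_ker, hf] at this
        simpa using this
      · intro v
        exact Subtype.ext (hi v.1)
      · intro v
        exact Subtype.ext (hj v.1)
      · intro v
        exact Subtype.ext (hij v.1)
    have hiR : ∀ v ∈ f.range, i v ∈ f.range := by
      rintro _ ⟨w, rfl⟩
      exact ⟨i w, by rw [hf, hf, map_nsmul]⟩
    have hjR : ∀ v ∈ f.range, j v ∈ f.range := by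
      rintro _ ⟨w, rfl⟩
      exact ⟨j w, by rw [hf, hf, map_nsmul]⟩
    let iR : f.range →+ f.range := (i.comp f.range.subtype).codRestrict f.range (fun v => hiR v.1 v.2)
    let jR : f.range →+ f.range := (j.comp f.range.subtype).codRestrict f.range (fun v => hjR v.1 v.2)
    have hlt : Nat.card f.range < n := by
      have hpos : 0 < Nat.card f.range := Nat.card_pos
      rw [← hn, ← hcard]
      nlinarith
    have hsqR : IsSquare (Nat.card f.range) :=
      ih (Nat.card f.range) hlt f.range iR jR (fun v => Subtype.ext (hi v.1)) (fun v => Subtype.ext (hj v.1))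
        (fun v => Subtype.ext (hij v.1)) (Odd.of_dvd_nat hodd (hcard ▸ dvd_mul_left _ _)) rfl
    rw [← hn, ← hcard]
    exact hsqK.mul hsqR

theorem sq_card_of_action {K : Type u} [Group K] [Finite K] (i j : K →* K)
    (hi : ∀ v, i (i v) = v⁻¹) (hj : ∀ v, j (j v) = v⁻¹) (hij : ∀ v, i (j v) = (j (i v))⁻¹)
    (hodd : Odd (Nat.card K)) : IsSquare (Nat.card K) := by
  have hcomm : ∀ a b : K, a * b = b * a := by
    intro a b
    have h1 : (a⁻¹ * b⁻¹)⁻¹ = a * b := by
      rw [← hi, map_mul, map_mul, hi, hi, inv_inv, inv_inv]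
    rw [← h1, mul_inv_rev, inv_inv, inv_inv]
  let _inst : CommGroup K := { (inferInstance : Group K) with mul_comm := hcomm }
  exact sq_card_aux (Nat.card K) (Additive K) (MonoidHom.toAdditive i) (MonoidHom.toAdditive j)
    (fun v => congrArg Additive.ofMul (hi (Additive.toMul v)))
    (fun v => congrArg Additive.ofMul (hj (Additive.toMul v)))
    (fun v => congrArg Additive.ofMul (hij (Additive.toMul v))) hodd rfl


/-- A Frobenius complement containing elements `i`, `j` satisfying the relations of the quaternion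
group of order 8 has a kernel of odd square order. -/
theorem frob_kernel_sq {L : Type u} [Group L] [Finite L] (H : Subgroup L)
    (hH : Cfsg.IsFrobeniusComplement H) (i j : L) (hi : i ∈ H) (hz1 : i * i ≠ 1)
    (hz2 : (i * i) * (i * i) = 1) (hjj : j * j = i * i) (hij : i * j = (i * i) * (j * i)) :
    Odd (Nat.card (Cfsg.frobeniusKernel H)) ∧ IsSquare (Nat.card (Cfsg.frobeniusKernel H)) := by
  set N := Cfsg.Agent.Lib.Lead.frobKer H hH with hN
  have hNn : N.Normal := Cfsg.Agent.Lib.Lead.frobKer_normal H hH
  have hzH : i * i ∈ H := H.mul_mem hi hi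
  have hfix : ∀ a ∈ N, (i * i) * a * (i * i)⁻¹ = a → a = 1 := by
    intro a ha hfa
    exact Cfsg.Agent.Lib.Lead.frob_commute_eq_one H hH hzH hz1 ha (mul_inv_eq_iff_eq_mul.mp hfa)
  have hinv : ∀ a ∈ N, (i * i) * a * (i * i)⁻¹ = a⁻¹ :=
    Cfsg.Agent.Lib.Helper18.inverts_of_fixedPointFree hz2
      (by rw [Subgroup.normalizer_eq_top_iff.mpr hNn]; trivial) hfix
  let ci : N →* N := (MulAut.conjNormal i : MulAut N).toMonoidHom
  let cj : N →* N := (MulAut.conjNormal j : MulAut N).toMonoidHom
  have hci : ∀ v : N, ((ci v : N) : L) = i * v * i⁻¹ := fun v => MulAut.conjNormal_apply i v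
  have hcj : ∀ v : N, ((cj v : N) : L) = j * v * j⁻¹ := fun v => MulAut.conjNormal_apply j v
  have h1 : ∀ v : N, ci (ci v) = v⁻¹ := by
    intro v
    apply Subtype.ext
    rw [hci, hci, Subgroup.coe_inv, ← hinv v v.2]
    group
  have h2 : ∀ v : N, cj (cj v) = v⁻¹ := by
    intro v
    apply Subtype.ext
    rw [hcj, hcj, Subgroup.coe_inv, ← hinv v v.2, ← hjj]
    group
  have h3 : ∀ v : N, ci (cj v) = (cj (ci v))⁻¹ := by
    intro v
    apply Subtype.ext
    rw [hci, hcj, Subgroup.coe_inv, hcj, hci, ← hinv _ (hNn.conj_mem _ (hNn.conj_mem _ v.2 i) j)]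
    have e : i * (j * (v : L) * j⁻¹) * i⁻¹ = (i * j) * v * (i * j)⁻¹ := by group
    rw [e, hij]
    group
  have hodd : Odd (Nat.card N) := by
    have hcop := Cfsg.Agent.Lib.Lead.frobKer_coprime H hH
    by_contra hne
    have h2N : 2 ∣ Nat.card N := by
      rw [Nat.not_odd_iff_even] at hne
      exact even_iff_two_dvd.mp hne
    have h2H : 2 ∣ Nat.card H := by
      have ho : orderOf (⟨i * i, hzH⟩ : H) = 2 := by
        apply orderOf_eq_prime
        · apply Subtype.ext
          simpa [pow_two] using hz2
        · intro h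
          exact hz1 (congrArg Subtype.val h)
      rw [← ho]
      exact orderOf_dvd_natCard _
    have h3 := Nat.dvd_gcd h2N h2H
    rw [Nat.Coprime.gcd_eq_one hcop] at h3
    omega
  have hsq := sq_card_of_action ci cj h1 h2 h3 hodd
  have hcard : Nat.card (Cfsg.frobeniusKernel H) = Nat.card N := by
    rw [← Cfsg.Agent.Lib.Lead.coe_frobKer H hH]
    rfl
  rw [hcard]
  exact ⟨hodd, hsq⟩

/-- Homomorphisms out of the dicyclic group with prescribed images of the generators. -/
theorem quat_hom {G : Type*} [Group G] (n : ℕ) (hn : 2 ≤ n) (u w : G)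
    (hu : orderOf u = 2 * n) (hw : w * w = u ^ n) (huw : u * w = w * u⁻¹) :
    ∃ f : QuaternionGroup n →* G, Function.Injective f ∧ f (QuaternionGroup.a 1) = u ∧
      f (QuaternionGroup.xa 0) = w := by
  have hne : NeZero (2 * n) := ⟨by omega⟩
  have hcadd : ∀ i j : ZMod (2 * n), u ^ (i + j).val = u ^ i.val * u ^ j.val := by
    intro i j
    have h := pow_mod_orderOf u (i.val + j.val)
    rw [hu] at h
    rw [ZMod.val_add, h, pow_add]
  have hcn : u ^ ((n : ZMod (2 * n))).val = u ^ n := by
    have h := pow_mod_orderOf u n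
    rw [hu] at h
    rw [ZMod.val_natCast, h]
  have hc0 : ∀ i : ZMod (2 * n), u ^ i.val = 1 → i = 0 := by
    intro i hi
    have h1 := orderOf_dvd_of_pow_eq_one hi
    rw [hu] at h1
    have h2 := ZMod.val_lt i
    have h3 : i.val = 0 := Nat.eq_zero_of_dvd_of_lt h1 h2
    exact (ZMod.val_eq_zero i).mp h3
  have hcsub : ∀ i j : ZMod (2 * n), u ^ (j - i).val = (u ^ i.val)⁻¹ * u ^ j.val := by
    intro i j
    have h := hcadd i (j - i)
    rw [add_sub_cancel] at h
    rw [h, inv_mul_cancel_left]
  have hcw : ∀ k : ℕ, u ^ k * w = w * (u ^ k)⁻¹ := by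
    intro k
    induction k with
    | zero => simp
    | succ k ih =>
      rw [pow_succ, mul_assoc, huw, ← mul_assoc, ih, mul_assoc, ← mul_inv_rev, ← pow_succ']
      rw [pow_succ]
  let f : QuaternionGroup n → G := fun x =>
    match x with
    | QuaternionGroup.a i => u ^ i.val
    | QuaternionGroup.xa i => w * u ^ i.val
  have hfa : ∀ i, f (QuaternionGroup.a i) = u ^ i.val := fun i => rfl
  have hfxa : ∀ i, f (QuaternionGroup.xa i) = w * u ^ i.val := fun i => rfl
  have hmul : ∀ x y, f (x * y) = f x * f y := by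
    rintro (i | i) (j | j)
    · rw [QuaternionGroup.a_mul_a, hfa, hfa, hfa, hcadd]
    · rw [QuaternionGroup.a_mul_xa, hfa, hfxa, hfxa, hcsub, ← mul_assoc, ← mul_assoc, hcw]
    · rw [QuaternionGroup.xa_mul_a, hfa, hfxa, hfxa, hcadd, mul_assoc]
    · rw [QuaternionGroup.xa_mul_xa, hfa, hfxa, hfxa, add_sub_assoc, hcadd, hcn, hcsub, ← hw]
      rw [mul_assoc w (u ^ i.val), ← mul_assoc (u ^ i.val), hcw]
      simp only [mul_assoc]
  refine ⟨MonoidHom.mk' f hmul, ?_, ?_, ?_⟩
  · rw [injective_iff_map_eq_one]
    rintro (i | i) hx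
    · have h1 : u ^ i.val = 1 := hx
      rw [hc0 i h1]
      rfl
    · exfalso
      have h1 : w * u ^ i.val = 1 := hx
      have h2 : w = (u ^ i.val)⁻¹ := eq_inv_of_mul_eq_one_left h1
      have h3 : u * w = w * u := by
        rw [h2]
        exact ((Commute.refl u).pow_right i.val).inv_right.eq
      have h4 : u = u⁻¹ := by
        have := h3.symm.trans huw
        exact mul_left_cancel this
      have h5 : u ^ 2 = 1 := by
        rw [pow_two]
        nth_rw 2 [h4]
        exact mul_inv_cancel u
      have h6 := orderOf_dvd_of_pow_eq_one h5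
      rw [hu] at h6
      have := Nat.le_of_dvd (by norm_num) h6
      omega
  · change u ^ (1 : ZMod (2 * n)).val = u
    have : (1 : ZMod (2 * n)).val = 1 := by
      have : Fact (1 < 2 * n) := ⟨by omega⟩
      exact ZMod.val_one (2 * n)
    rw [this, pow_one]
  · change w * u ^ (0 : ZMod (2 * n)).val = w
    rw [ZMod.val_zero, pow_zero, mul_one]

/-- A finite nontrivial group acting fixed-point-freely on a finite nontrivial abelian group is a
Frobenius complement in a group of order `|V| * |H|`. -/
theorem exists_frobenius_of_fpf_card {H V : Type*} [Group H] [Finite H] [Nontrivial H]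
    [AddCommGroup V] [Finite V] [Nontrivial V] [DistribMulAction H V]
    (hfpf : ∀ h : H, h ≠ 1 → ∀ v : V, h • v = v → v = 0) :
    ∃ (L : Type) (_ : Group L) (_ : Finite L) (C : Subgroup L),
      Cfsg.IsFrobeniusComplement C ∧ Nonempty (H ≃* C) ∧ Nat.card L = Nat.card V * Nat.card H := by
  let φ : H →* MulAut (Multiplicative V) :=
    (MulAutMultiplicative V).symm.toMonoidHom.comp (DistribMulAction.toAddAut H V)
  have hφ : ∀ (h : H) (v : Multiplicative V),
      φ h v = Multiplicative.ofAdd (h • Multiplicative.toAdd v) := fun h v => rfl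
  have hfin : Finite (Multiplicative V ⋊[φ] H) :=
    Finite.of_equiv (Multiplicative V × H) SemidirectProduct.equivProd.symm
  have hmemC : ∀ x : Multiplicative V ⋊[φ] H,
      x ∈ (SemidirectProduct.inr : H →* Multiplicative V ⋊[φ] H).range ↔ x.left = 1 := by
    intro x
    constructor
    · rintro ⟨h, rfl⟩
      exact SemidirectProduct.left_inr h
    · intro hx
      exact ⟨x.right, by ext <;> simp [hx]⟩
  have hC' : Cfsg.IsFrobeniusComplement
      (SemidirectProduct.inr : H →* Multiplicative V ⋊[φ] H).range := by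
    rw [isFrobeniusComplement_iff]
    refine ⟨?_, ?_, ?_⟩
    · obtain ⟨h, hh⟩ := exists_ne (1 : H)
      intro hbot
      have hm : (SemidirectProduct.inr h : Multiplicative V ⋊[φ] H) ∈
          (SemidirectProduct.inr : H →* Multiplicative V ⋊[φ] H).range := ⟨h, rfl⟩
      rw [hbot, Subgroup.mem_bot] at hm
      apply hh
      have := congrArg SemidirectProduct.right hm
      simpa using this
    · obtain ⟨v, hv⟩ := exists_ne (0 : V)
      intro htop
      have hm : (SemidirectProduct.inl (Multiplicative.ofAdd v) : Multiplicative V ⋊[φ] H) ∈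
          (SemidirectProduct.inr : H →* Multiplicative V ⋊[φ] H).range := by
        rw [htop]; trivial
      rw [hmemC] at hm
      simp at hm
      exact hv hm
    · intro g hg x hx hgx
      rw [hmemC] at hg hx hgx
      have key : φ x.right g.left = g.left := by
        have e : (g⁻¹ * x * g).left = φ g.right⁻¹ (g.left⁻¹ * φ x.right g.left) := by
          simp only [SemidirectProduct.mul_left, SemidirectProduct.mul_right,
            SemidirectProduct.inv_left, SemidirectProduct.inv_right, hx, map_one, mul_one,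
            map_mul, MulAut.mul_apply]
        rw [e] at hgx
        have h1 := (φ g.right⁻¹).injective (hgx.trans (map_one _).symm)
        exact (inv_mul_eq_one.mp h1).symm
      by_contra hx1
      have hxr : x.right ≠ 1 := by
        intro h
        apply hx1
        ext <;> simp [hx, h]
      have h0 := hfpf x.right hxr (Multiplicative.toAdd g.left) (by
        have := congrArg Multiplicative.toAdd key
        rwa [hφ] at this)
      apply hg
      exact toAdd_eq_zero.mp h0
  have e : (Multiplicative V ⋊[φ] H) ≃* Shrink.{0} (Multiplicative V ⋊[φ] H) :=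
    (Shrink.mulEquiv : Shrink.{0} (Multiplicative V ⋊[φ] H) ≃* (Multiplicative V ⋊[φ] H)).symm
  refine ⟨Shrink.{0} (Multiplicative V ⋊[φ] H), inferInstance, Finite.of_equiv _ e.toEquiv,
    (SemidirectProduct.inr : H →* Multiplicative V ⋊[φ] H).range.map e.toMonoidHom,
    isFrobeniusComplement_map e _ hC',
    ⟨(MonoidHom.ofInjective SemidirectProduct.inr_injective).trans (e.subgroupMap _)⟩, ?_⟩
  rw [← Nat.card_congr e.toEquiv, Nat.card_congr SemidirectProduct.equivProd, Nat.card_prod]
  rfl

end Cfsg.Agent.Lib.Helper24
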