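import Mathlib
import Cfsg.Agent.Lib.Helper8.Covering
import Cfsg.Agent.Lib.Helper8.Extended
import Cfsg.Agent.Lib.Helper8.DefectLocal
import Cfsg.Agent.Lib.Helper25.Defect0
import Cfsg.Agent.Lib.Helper2.CharClifford
import Cfsg.Agent.Lib.Helper2.CharOrtho
import Cfsg.Agent.S0912
import Cfsg.Agent.S0962
import Cfsg.Agent.S0908
import Cfsg.Agent.S0920

set_option autoImplicit false

namespace Cfsg.Agent.Lib.Helper24

open Cfsg

/-- the `p`-regular elements centralizing a normal Sylow `p`-subgroup form a normal subgroup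
of order prime to `p` -/
theorem exists_regular_centralizer {H : Type*} [Group H] [Finite H] (p : ℕ) [Fact p.Prime]
    (Q : Sylow p H) (hQ : (Q : Subgroup H).Normal) :
    ∃ K : Subgroup H, K.Normal ∧ ¬ p ∣ Nat.card K ∧
      ∀ n : H, n ∈ K ↔ (¬ p ∣ orderOf n ∧
        n ∈ Subgroup.centralizer ((Q : Subgroup H) : Set H)) := by
  classical
  have hp : p.Prime := Fact.out
  set C : Subgroup H := Subgroup.centralizer ((Q : Subgroup H) : Set H) with hC
  have hCn : C.Normal := Subgroup.normal_centralizer
  obtain ⟨R⟩ : Nonempty (Sylow p C) := inferInstance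
  have huniq := Sylow.unique_of_normal Q hQ
  have hRQ : ∀ x : C, x ∈ R → (x : H) ∈ Q := by
    intro x hx
    have hpg : IsPGroup p ((R : Subgroup C).map C.subtype) := R.isPGroup'.map _
    obtain ⟨Q', hQ'⟩ := hpg.exists_le_sylow
    have h1 : Q' = Q := Subsingleton.elim _ _
    rw [h1] at hQ'
    exact hQ' (Subgroup.mem_map_of_mem _ hx)
  have hcen : Subgroup.normalizer ((R : Subgroup C) : Set C)
      ≤ Subgroup.centralizer ((R : Subgroup C) : Set C) := by
    intro x _ y hy
    have h1 := x.2 (y : H) (hRQ y hy)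
    exact Subtype.ext h1
  have hnd := MonoidHom.not_dvd_card_ker_transferSylow R hcen
  have hmem : ∀ n : H, n ∈ ((MonoidHom.transferSylow R hcen).ker).map C.subtype
      ↔ (¬ p ∣ orderOf n ∧ n ∈ C) := by
    intro n
    constructor
    · rintro ⟨k, hk, rfl⟩
      refine ⟨?_, k.2⟩
      intro hdvd
      apply hnd
      have h1 : orderOf ((C.subtype k) : H) = orderOf k := Subgroup.orderOf_coe k
      have h2 : orderOf (⟨k, hk⟩ : (MonoidHom.transferSylow R hcen).ker) = orderOf k :=
        Subgroup.orderOf_mk k hk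
      have h3 : orderOf (⟨k, hk⟩ : (MonoidHom.transferSylow R hcen).ker)
          ∣ Nat.card (MonoidHom.transferSylow R hcen).ker := orderOf_dvd_natCard _
      rw [h1, ← h2] at hdvd
      exact hdvd.trans h3
    · rintro ⟨hreg, hn⟩
      refine ⟨⟨n, hn⟩, ?_, rfl⟩
      rw [SetLike.mem_coe, MonoidHom.mem_ker]
      have h1 : orderOf (MonoidHom.transferSylow R hcen ⟨n, hn⟩) ∣ orderOf (⟨n, hn⟩ : C) :=
        orderOf_map_dvd _ _
      have h2 : orderOf (⟨n, hn⟩ : C) = orderOf n := Subgroup.orderOf_mk n hn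
      obtain ⟨k, hk⟩ := (IsPGroup.iff_orderOf.mp R.isPGroup')
        (MonoidHom.transferSylow R hcen ⟨n, hn⟩)
      rw [h2, hk] at h1
      rcases Nat.eq_zero_or_pos k with h0 | h0
      · rw [h0, pow_zero] at hk
        exact orderOf_eq_one_iff.mp hk
      · exfalso
        exact hreg ((dvd_pow_self p h0.ne').trans h1)
  refine ⟨((MonoidHom.transferSylow R hcen).ker).map C.subtype, ?_, ?_, hmem⟩
  · constructor
    intro n hn g
    rw [hmem] at hn ⊢
    refine ⟨?_, hCn.conj_mem n hn.2 g⟩
    have h1 : orderOf (g * n * g⁻¹) = orderOf n := by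
      have := orderOf_injective (MulAut.conj g).toMonoidHom (MulAut.conj g).injective n
      simpa using this
    rw [h1]
    exact hn.1
  · intro hdvd
    apply hnd
    have h1 : Nat.card (((MonoidHom.transferSylow R hcen).ker).map C.subtype)
        = Nat.card (MonoidHom.transferSylow R hcen).ker :=
      Subgroup.card_map_of_injective C.subtype_injective
    rw [h1] at hdvd
    exact hdvd

open Cfsg.Agent.Lib.Helper2 Cfsg.Agent.Lib.Helper8 Cfsg.Agent.Lib.Helper25 in
/-- two irreducible characters in the same block have proportional restrictions to a normal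
subgroup of order prime to `p` -/
theorem restrict_proportional {H : Type*} [Group H] [Fintype H] {p : ℕ} [Fact p.Prime]
    {M : Ideal AlgInt} (hM : IsPModular p M) (K : Subgroup H) [hK : K.Normal] [Fintype K]
    (hKp : ¬ p ∣ Nat.card K) (χ χ' : IrrCharacter H)
    (hs : SameBlock M (χ : H → ℂ) (χ' : H → ℂ)) :
    ∃ μ : ℂ, ∀ k : K, (χ : H → ℂ) k = μ * (χ' : H → ℂ) k := by
  classical
  have hpr := isPrime_of_isPModular hM
  have : Fintype (IrrCharacter K) := Fintype.ofFinite _
  have hcf : ∀ ξ : IrrCharacter H, IsClassFunction K (fun k : K => (ξ : H → ℂ) k) := by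
    intro ξ k h
    exact isClassFunction_of_isIrrCharacter ξ.2 k h
  have hexp : ∀ ξ : IrrCharacter H, (fun k : K => (ξ : H → ℂ) k)
      = ∑ ψ : IrrCharacter K,
        classInner (fun k : K => (ξ : H → ℂ) k) (ψ : K → ℂ) • (ψ : K → ℂ) :=
    fun ξ => class_fun_expand _ (hcf ξ)
  have hex : ∀ ξ : IrrCharacter H, ∃ θ : IrrCharacter K,
      classInner (fun k : K => (ξ : H → ℂ) k) (θ : K → ℂ) ≠ 0 := by
    intro ξ
    by_contra hno
    have hno' : ∀ θ : IrrCharacter K,
        classInner (fun k : K => (ξ : H → ℂ) k) (θ : K → ℂ) = 0 := by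
      intro θ
      by_contra h
      exact hno ⟨θ, h⟩
    have h1 : (ξ : H → ℂ) ((1 : K) : H) = _ := congrFun (hexp ξ) 1
    rw [Finset.sum_apply] at h1
    simp only [hno', zero_smul, Pi.zero_apply, Finset.sum_const_zero] at h1
    exact irr_one_ne_zero ξ.2 h1
  obtain ⟨θ, hθ⟩ := hex χ
  obtain ⟨θ', hθ'⟩ := hex χ'
  have hmem := mem_conjOrbit_of_sameBlock K hM (b := blockOf M (θ : K → ℂ)) ⟨θ, rfl⟩ χ χ' hs θ
    (sameBlock_refl M _) hθ θ' hθ'
  obtain ⟨g, hg⟩ := hmem
  obtain ⟨d, hd1, hdpos, hddvd, _⟩ := irr_degree θ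
  have hpd : ¬ p ∣ Nat.card K / d := fun h => hKp (h.trans (Nat.div_dvd_of_dvd hddvd))
  have heq : conjIrr K θ' g = θ :=
    eq_of_sameBlock_of_defect_zero hM θ (conjIrr K θ' g) hg d hd1 hddvd hpd
  have hθ2 : classInner (fun k : K => (χ' : H → ℂ) k) (θ : K → ℂ) ≠ 0 := by
    rw [← heq]
    have := classInner_restrict_conjFun K (isClassFunction_of_isIrrCharacter χ'.2)
      (θ' : K → ℂ) g
    change classInner (fun k : K => (χ' : H → ℂ) k) (Helper2.conjFun K (θ' : K → ℂ) g) ≠ 0
    rw [this]
    exact hθ'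
  have hcoef : ∀ ξ : IrrCharacter H,
      classInner (fun k : K => (ξ : H → ℂ) k) (θ : K → ℂ) ≠ 0 →
      ∀ ψ : IrrCharacter K, classInner (fun k : K => (ξ : H → ℂ) k) (ψ : K → ℂ)
        = if (∃ g : H, (ψ : K → ℂ) = Helper2.conjFun K (θ : K → ℂ) g) then
            classInner (fun k : K => (ξ : H → ℂ) k) (θ : K → ℂ) else 0 := by
    intro ξ hξ ψ
    split_ifs with h
    · obtain ⟨g, hg⟩ := h
      rw [hg]
      exact classInner_restrict_conjFun K (isClassFunction_of_isIrrCharacter ξ.2) _ g
    · apply clifford_conj K ξ.2 θ.2 hξ ψ.2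
      intro g hg
      exact h ⟨g, hg⟩
  refine ⟨classInner (fun k : K => (χ : H → ℂ) k) (θ : K → ℂ)
    / classInner (fun k : K => (χ' : H → ℂ) k) (θ : K → ℂ), fun k => ?_⟩
  have e1 : (χ : H → ℂ) (k : H) = _ := congrFun (hexp χ) k
  have e2 : (χ' : H → ℂ) (k : H) = _ := congrFun (hexp χ') k
  rw [Finset.sum_apply] at e1 e2
  rw [e1, e2, Finset.mul_sum]
  apply Finset.sum_congr rfl
  intro ψ _
  rw [Pi.smul_apply, Pi.smul_apply, smul_eq_mul, smul_eq_mul, hcoef χ hθ ψ, hcoef χ' hθ2 ψ]
  split_ifs
  · field_simp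
  · simp

open Cfsg.Agent.Lib.Helper2 Cfsg.Agent.Lib.Helper8 Cfsg.Agent.Lib.Helper25 in
open scoped ComplexConjugate in
/-- the number of conjugacy classes inside a normal subgroup of order prime to `p` is at most
the number of blocks -/
theorem card_classes_le_card_blocks {H : Type*} [Group H] [Finite H] {p : ℕ} [Fact p.Prime]
    {M : Ideal AlgInt} (hM : IsPModular p M) (K : Subgroup H) [hK : K.Normal]
    (hKp : ¬ p ∣ Nat.card K) :
    Nat.card {C : ConjClasses H // ∀ n : H, ConjClasses.mk n = C → n ∈ K}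
      ≤ Nat.card {b : Set (IrrCharacter H) // IsPBlock M b} := by
  classical
  have := Fintype.ofFinite H
  have := Fintype.ofFinite K
  have := Fintype.ofFinite (IrrCharacter H)
  have hpr := isPrime_of_isPModular hM
  have : Fintype {C : ConjClasses H // ∀ n : H, ConjClasses.mk n = C → n ∈ K} :=
    Fintype.ofFinite _
  have : Fintype {b : Set (IrrCharacter H) // IsPBlock M b} := Fintype.ofFinite _
  have hrep : ∀ C : {C : ConjClasses H // ∀ n : H, ConjClasses.mk n = C → n ∈ K},
      ∃ c : H, ConjClasses.mk c = C.1 := fun C => ConjClasses.exists_rep C.1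
  choose rep hrepC using hrep
  have hrepK : ∀ C, rep C ∈ K := fun C => C.2 _ (hrepC C)
  have hbne : ∀ b : {b : Set (IrrCharacter H) // IsPBlock M b}, ∃ χ : IrrCharacter H, χ ∈ b.1 :=
    fun b => isPBlock_nonempty' hM b.2
  choose chi hchi using hbne
  let L : ({C : ConjClasses H // ∀ n : H, ConjClasses.mk n = C → n ∈ K} → ℂ) →ₗ[ℂ]
      ({b : Set (IrrCharacter H) // IsPBlock M b} → ℂ) :=
    { toFun := fun lam b => ∑ C, lam C * (chi b : H → ℂ) (rep C)
      map_add' := by
        intro x y
        funext b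
        simp only [Pi.add_apply, add_mul, Finset.sum_add_distrib]
      map_smul' := by
        intro c x
        funext b
        simp only [Pi.smul_apply, smul_eq_mul, RingHom.id_apply, Finset.mul_sum, mul_assoc] }
  have hinj : Function.Injective L := by
    rw [← LinearMap.ker_eq_bot, LinearMap.ker_eq_bot']
    intro lam hlam
    have hall : ∀ χ : IrrCharacter H, ∑ C, lam C * (χ : H → ℂ) (rep C) = 0 := by
      intro χ
      obtain ⟨b, hb⟩ : ∃ b : {b : Set (IrrCharacter H) // IsPBlock M b},
          b.1 = blockOf M (χ : H → ℂ) := ⟨⟨blockOf M (χ : H → ℂ), χ, rfl⟩, rfl⟩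
      have hsb : SameBlock M (χ : H → ℂ) (chi b : H → ℂ) := by
        have := hchi b
        rw [hb] at this
        exact this
      obtain ⟨μ, hμ⟩ := restrict_proportional hM K hKp χ (chi b) hsb
      have h0 : ∑ C, lam C * (chi b : H → ℂ) (rep C) = 0 := congrFun hlam b
      calc ∑ C, lam C * (χ : H → ℂ) (rep C)
          = ∑ C, μ * (lam C * (chi b : H → ℂ) (rep C)) := by
            apply Finset.sum_congr rfl
            intro C _
            rw [hμ ⟨rep C, hrepK C⟩]; ring
        _ = 0 := by rw [← Finset.mul_sum, h0, mul_zero]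
    funext C₀
    have h1 : ∑ χ : IrrCharacter H, (∑ C, lam C * (χ : H → ℂ) (rep C))
        * conj ((χ : H → ℂ) (rep C₀)) = 0 := by
      apply Finset.sum_eq_zero
      intro χ _
      rw [hall χ, zero_mul]
    simp only [Finset.sum_mul] at h1
    rw [Finset.sum_comm] at h1
    have h2 : ∀ C, ∑ χ : IrrCharacter H, lam C * (χ : H → ℂ) (rep C)
        * conj ((χ : H → ℂ) (rep C₀)) = lam C * colFun (rep C₀) (rep C) := by
      intro C
      rw [← column_orthogonality (rep C) (rep C₀), Finset.mul_sum]
      apply Finset.sum_congr rfl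
      intro χ _
      ring
    simp only [h2] at h1
    rw [Finset.sum_eq_single C₀] at h1
    · rcases mul_eq_zero.mp h1 with h | h
      · exact h
      · exfalso
        unfold colFun at h
        rw [Finset.sum_boole] at h
        have h3 : (Finset.univ.filter (fun x : H => x * rep C₀ * x⁻¹ = rep C₀)).card ≠ 0 :=
          Finset.card_ne_zero.mpr ⟨1, by simp⟩
        exact h3 (Nat.cast_eq_zero.mp h)
    · intro C _ hne
      have h3 : colFun (rep C₀) (rep C) = 0 := by
        unfold colFun
        apply Finset.sum_eq_zero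
        intro x _
        rw [if_neg]
        intro hx
        apply hne
        apply Subtype.ext
        rw [← hrepC C, ← hrepC C₀, ← hx]
        exact ConjClasses.mk_eq_mk_iff_isConj.mpr (isConj_iff.mpr ⟨x, rfl⟩)
      rw [h3, mul_zero]
    · intro h
      exact absurd (Finset.mem_univ _) h
  have hfin := LinearMap.finrank_le_finrank_of_injective hinj
  rw [Module.finrank_fintype_fun_eq_card, Module.finrank_fintype_fun_eq_card] at hfin
  rw [Nat.card_eq_fintype_card, Nat.card_eq_fintype_card]
  exact hfin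

open Cfsg.Agent.Lib.Helper8 in
/-- every block of a group with a normal Sylow `p`-subgroup has it as a defect group -/
theorem defectGroup_of_normal_sylow {H : Type*} [Group H] [Finite H] (p : ℕ) [Fact p.Prime]
    (M : Ideal AlgInt) (hM : IsPModular p M) (Q : Sylow p H) (hQ : (Q : Subgroup H).Normal)
    (b : Set (IrrCharacter H)) (hb : IsPBlock M b) : IsDefectGroup p M b (Q : Subgroup H) := by
  obtain ⟨D, hD⟩ := exists_defectGroup' hM b hb
  have hDp : IsPGroup p D := isPGroup_of_isDefectGroup hD
  have hle : (Q : Subgroup H) ≤ D :=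
    Cfsg.Agent.S0912.normal_le_defect p M hM b hb D hD (Q : Subgroup H) Q.isPGroup'
  have h1 : D = Q := Q.is_maximal' hDp hle
  rw [← h1]
  exact hD

theorem orderOf_conj_eq {H : Type*} [Group H] (x g : H) :
    orderOf (x * g * x⁻¹) = orderOf g := by
  have := orderOf_injective (MulAut.conj x).toMonoidHom (MulAut.conj x).injective g
  simpa using this

/-- with a normal Sylow `p`-subgroup, the number of blocks is at most the number of classes of
`p`-regular elements centralizing it -/
theorem card_blocks_le_card_classes {H : Type*} [Group H] [Finite H] (p : ℕ) [Fact p.Prime]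
    (M : Ideal AlgInt) (hM : IsPModular p M) (Q : Sylow p H) (hQ : (Q : Subgroup H).Normal) :
    Nat.card {b : Set (IrrCharacter H) // IsPBlock M b}
      ≤ Nat.card {C : ConjClasses H // ∀ n : H, ConjClasses.mk n = C →
          (¬ p ∣ orderOf n ∧ n ∈ Subgroup.centralizer ((Q : Subgroup H) : Set H))} := by
  classical
  have hp : p.Prime := Fact.out
  have hCn : (Subgroup.centralizer ((Q : Subgroup H) : Set H)).Normal :=
    Subgroup.normal_centralizer
  have huniq := Sylow.unique_of_normal Q hQ
  have hQc : Nat.card (Q : Subgroup H) = p ^ (Nat.card H).factorization p :=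
    Q.card_eq_multiplicity
  have h1 := Cfsg.Agent.S0962.result (G := H) p M hM ((Nat.card H).factorization p)
  have e1 : Nat.card {b : Set (IrrCharacter H) // IsPBlock M b}
      = Nat.card {B : Set (IrrCharacter H) // IsPBlock M B ∧
          (Nat.card H).factorization p ≤ blockDefect p B} := by
    apply Nat.card_congr
    refine Equiv.subtypeEquivRight (fun b => ⟨fun hb => ⟨hb, ?_⟩, fun h => h.1⟩)
    have hD := defectGroup_of_normal_sylow p M hM Q hQ b hb
    have hc := Cfsg.Agent.S0908.result p M hM b hb _ hD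
    rw [hQc] at hc
    exact (Nat.pow_right_injective hp.two_le hc).le
  rw [e1]
  refine h1.trans ?_
  have key : ∀ C : ConjClasses H, (∃ g : H, ConjClasses.mk g = C ∧ IsPRegular p g ∧
      (Nat.card H).factorization p
        ≤ (Nat.card (Subgroup.centralizer ({g} : Set H))).factorization p) →
      ∀ n : H, ConjClasses.mk n = C →
        (¬ p ∣ orderOf n ∧ n ∈ Subgroup.centralizer ((Q : Subgroup H) : Set H)) := by
    rintro C ⟨g, hg, hreg, hdef⟩ n hn
    have hconj : IsConj g n := ConjClasses.mk_eq_mk_iff_isConj.mp (hg.trans hn.symm)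
    obtain ⟨x, hx⟩ := isConj_iff.mp hconj
    have hgC : g ∈ Subgroup.centralizer ((Q : Subgroup H) : Set H) := by
      obtain ⟨S⟩ : Nonempty (Sylow p (Subgroup.centralizer ({g} : Set H))) := inferInstance
      have hSc : Nat.card (S : Subgroup (Subgroup.centralizer ({g} : Set H)))
          = p ^ (Nat.card (Subgroup.centralizer ({g} : Set H))).factorization p :=
        S.card_eq_multiplicity
      have hpg : IsPGroup p ((S : Subgroup (Subgroup.centralizer ({g} : Set H))).map
          (Subgroup.centralizer ({g} : Set H)).subtype) := S.isPGroup'.map _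
      obtain ⟨Q', hQ'⟩ := hpg.exists_le_sylow
      have h2 : Q' = Q := Subsingleton.elim _ _
      rw [h2] at hQ'
      have hcard : Nat.card ((S : Subgroup (Subgroup.centralizer ({g} : Set H))).map
          (Subgroup.centralizer ({g} : Set H)).subtype)
          = Nat.card (S : Subgroup (Subgroup.centralizer ({g} : Set H))) :=
        Subgroup.card_map_of_injective (Subgroup.subtype_injective _)
      have hge : Nat.card (Q : Subgroup H)
          ≤ Nat.card ((S : Subgroup (Subgroup.centralizer ({g} : Set H))).map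
            (Subgroup.centralizer ({g} : Set H)).subtype) := by
        rw [hcard, hSc, hQc]
        exact Nat.pow_le_pow_right hp.pos hdef
      have heq := Subgroup.eq_of_le_of_card_ge hQ' hge
      rw [Subgroup.mem_centralizer_iff]
      intro q hq
      have hq' : q ∈ (S : Subgroup (Subgroup.centralizer ({g} : Set H))).map
          (Subgroup.centralizer ({g} : Set H)).subtype := by
        rw [heq]
        exact hq
      obtain ⟨s, _, rfl⟩ := hq'
      have := s.2
      rw [Subgroup.mem_centralizer_iff] at this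
      exact (this g rfl).symm
    refine ⟨?_, ?_⟩
    · rw [← hx, orderOf_conj_eq]
      exact hreg
    · rw [← hx]
      exact hCn.conj_mem g hgC x
  apply Nat.card_le_card_of_injective
    (fun C : {C : ConjClasses H // ∃ g : H, ConjClasses.mk g = C ∧ IsPRegular p g ∧
      (Nat.card H).factorization p
        ≤ (Nat.card (Subgroup.centralizer ({g} : Set H))).factorization p} =>
      (⟨C.1, key C.1 C.2⟩ : {C : ConjClasses H // ∀ n : H, ConjClasses.mk n = C →
          (¬ p ∣ orderOf n ∧ n ∈ Subgroup.centralizer ((Q : Subgroup H) : Set H))}))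
  intro C C' h
  have h' : C.1 = C'.1 := congrArg (fun z : {C : ConjClasses H // ∀ n : H,
    ConjClasses.mk n = C →
      (¬ p ∣ orderOf n ∧ n ∈ Subgroup.centralizer ((Q : Subgroup H) : Set H))} => z.1) h
  exact Subtype.ext h'

open Cfsg.Agent.Lib.Helper8 in
/-- Brauer's first main theorem as a count -/
theorem card_blocks_defect_eq {G : Type*} [Group G] [Finite G] (p : ℕ) [Fact p.Prime]
    (M : Ideal AlgInt) (hM : IsPModular p M) (D : Subgroup G) (hD : IsPGroup p D) :
    Nat.card {B : Set (IrrCharacter G) // IsPBlock M B ∧ IsDefectGroup p M B D}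
      = Nat.card {b : Set (IrrCharacter (Subgroup.normalizer (D : Set G))) //
          IsPBlock M b ∧ IsDefectGroup p M b (D.subgroupOf (Subgroup.normalizer (D : Set G)))} := by
  classical
  obtain ⟨h1, h2⟩ := Cfsg.Agent.S0920.result p M hM D hD
  symm
  choose f hf using fun b : {b : Set (IrrCharacter (Subgroup.normalizer (D : Set G))) //
      IsPBlock M b ∧ IsDefectGroup p M b (D.subgroupOf (Subgroup.normalizer (D : Set G)))} =>
    h1 b.1 b.2.1 b.2.2
  apply Nat.card_congr
  refine Equiv.ofBijective (fun b => ⟨f b, (hf b).1, (hf b).2.1⟩) ⟨?_, ?_⟩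
  · intro b b' hbb
    have hfb : f b = f b' := congrArg Subtype.val hbb
    obtain ⟨b₀, hb₀, huniq⟩ := h2 (f b) (hf b).1 (hf b).2.1
    have e1 := huniq b.1 ⟨b.2.1, b.2.2, (hf b).2.2⟩
    have e2 := huniq b'.1 ⟨b'.2.1, b'.2.2, by rw [hfb]; exact (hf b').2.2⟩
    exact Subtype.ext (e1.trans e2.symm)
  · intro B
    obtain ⟨b₀, hb₀, huniq⟩ := h2 B.1 B.2.1 B.2.2
    refine ⟨⟨b₀, hb₀.1, hb₀.2.1⟩, ?_⟩
    apply Subtype.ext
    exact isInducedBlock_unique hM _ (hf ⟨b₀, hb₀.1, hb₀.2.1⟩).2.2 hb₀.2.2

end Cfsg.Agent.Lib.Helper24
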